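import Mathlib
import Cfsg.Agent.H21.FrobeniusBasic

set_option autoImplicit false
open Pointwise

namespace Cfsg.Agent.H90

universe u v

/-- A fixed-point-free action gives a Frobenius group (in `Type`) with kernel of the same size. -/
theorem exists_fc_of_fpf {H : Type u} {V : Type v} [Group H] [Finite H] [Nontrivial H] [Group V]
    [Finite V] [Nontrivial V] (φ : H →* MulAut V)
    (hfpf : ∀ h : H, h ≠ 1 → ∀ x : V, φ h x = x → x = 1) :
    ∃ (L : Type) (_ : Group L) (_ : Finite L) (C : Subgroup L),
      Cfsg.IsFrobeniusComplement C ∧ Nonempty (H ≃* C) ∧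
        Nat.card (Cfsg.frobeniusKernel C) = Nat.card V := by
  haveI : Finite (V ⋊[φ] H) := Finite.of_equiv _ SemidirectProduct.equivProd.symm
  haveI : Small.{0} (V ⋊[φ] H) := Countable.toSmall _
  let e : V ⋊[φ] H ≃* Shrink.{0} (V ⋊[φ] H) := (Shrink.mulEquiv).symm
  haveI : Finite (Shrink.{0} (V ⋊[φ] H)) := Finite.of_equiv _ e.toEquiv
  let K : Subgroup (Shrink.{0} (V ⋊[φ] H)) := (e.toMonoidHom.comp SemidirectProduct.inl).range
  let C : Subgroup (Shrink.{0} (V ⋊[φ] H)) := (e.toMonoidHom.comp SemidirectProduct.inr).range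
  haveI : K.Normal := by
    have h1 : (SemidirectProduct.inl : V →* V ⋊[φ] H).range.Normal := by
      rw [SemidirectProduct.range_inl_eq_ker_rightHom]; infer_instance
    have := h1.map e.toMonoidHom e.surjective
    rwa [← MonoidHom.range_comp] at this
  have hc : Subgroup.IsComplement' K C := by
    refine Subgroup.isComplement'_of_disjoint_and_mul_eq_univ ?_ ?_
    · rw [disjoint_iff_inf_le]
      rintro _ ⟨⟨x, rfl⟩, h, hh⟩
      have := congrArg SemidirectProduct.right (e.injective hh)
      simp only [SemidirectProduct.right_inr, SemidirectProduct.right_inl] at this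
      rw [Subgroup.mem_bot, ← hh, this]
      simp
    · refine Set.eq_univ_of_forall fun y => ?_
      obtain ⟨w, rfl⟩ := e.surjective y
      refine ⟨_, ⟨w.left, rfl⟩, _, ⟨w.right, rfl⟩, ?_⟩
      simp only [MonoidHom.coe_comp, Function.comp_apply, MulEquiv.coe_toMonoidHom, ← map_mul,
        SemidirectProduct.inl_left_mul_inr_right]
  have hinjC : Function.Injective (e.toMonoidHom.comp SemidirectProduct.inr) :=
    e.injective.comp SemidirectProduct.inr_injective
  have hinjK : Function.Injective (e.toMonoidHom.comp SemidirectProduct.inl) :=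
    e.injective.comp SemidirectProduct.inl_injective
  have hK : K ≠ ⊥ := by
    intro h
    obtain ⟨x, hx⟩ := exists_ne (1 : V)
    have : (e.toMonoidHom.comp SemidirectProduct.inl) x ∈ K := ⟨x, rfl⟩
    rw [h, Subgroup.mem_bot, map_eq_one_iff _ hinjK] at this
    exact hx this
  have hC : C ≠ ⊥ := by
    intro h
    obtain ⟨x, hx⟩ := exists_ne (1 : H)
    have : (e.toMonoidHom.comp SemidirectProduct.inr) x ∈ C := ⟨x, rfl⟩
    rw [h, Subgroup.mem_bot, map_eq_one_iff _ hinjC] at this
    exact hx this
  have hfc : Cfsg.IsFrobeniusComplement C := by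
    refine Cfsg.Agent.H21.fc_of_fpf hc hK hC ?_
    rintro _ ⟨h, rfl⟩ hne
    rw [Subgroup.eq_bot_iff_forall]
    rintro _ ⟨⟨x, rfl⟩, hx⟩
    have hx' := Subgroup.mem_centralizer_singleton_iff.1 hx
    simp only [MonoidHom.coe_comp, Function.comp_apply, MulEquiv.coe_toMonoidHom, ← map_mul] at hx'
    have h2 := congrArg SemidirectProduct.left (e.injective hx')
    simp at h2
    rw [hfpf h (fun h1 => hne (by rw [h1, map_one])) x h2.symm, map_one]
  refine ⟨_, inferInstance, inferInstance, C, hfc, ⟨MonoidHom.ofInjective hinjC⟩, ?_⟩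
  rw [← Cfsg.Agent.H21.coe_eq_kernel_of_isComplement' hfc hc]
  exact (Nat.card_congr (MonoidHom.ofInjective hinjK).toEquiv).symm

/-- In a ring, a killed geometric sum and an invertible prime make `X - 1` a unit. -/
theorem isUnit_sub_one_of_geom_sum {S : Type*} [Ring S] (X : S) (p : ℕ)
    (he : ∑ i ∈ Finset.range p, X ^ i = 0) (hp : IsUnit (p : S)) : IsUnit (X - 1) := by
  set Q := ∑ i ∈ Finset.range p, ∑ j ∈ Finset.range i, X ^ j with hQ
  have h1 : (X - 1) * Q = -(p : S) := by
    rw [hQ, Finset.mul_sum]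
    simp only [mul_geom_sum]
    rw [Finset.sum_sub_distrib, he]
    simp
  have h2 : Q * (X - 1) = -(p : S) := by
    rw [hQ, Finset.sum_mul]
    simp only [geom_sum_mul]
    rw [Finset.sum_sub_distrib, he]
    simp
  exact ((show Commute (X - 1) Q from h1.trans h2.symm).isUnit_mul_iff.1 (h1 ▸ hp.neg)).1

/-- A representation by matrices in which each element of prime order moves every nonzero vector,
stated invertibly. -/
def IsMatFPF (A : Type*) [Group A] (K : Type*) [CommRing K] : Prop :=
  ∃ (n : ℕ) (ρ : A →* Matrix (Fin n) (Fin n) K), 0 < n ∧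
    ∀ (p : ℕ) (a : A), p.Prime → orderOf a = p → IsUnit (ρ a - 1)

/-- A matrix fixed-point-free representation gives a fixed-point-free action on column vectors. -/
theorem exists_mulAut_of_matrix {A : Type u} [Group A] [Finite A] {K : Type v} [CommRing K] {n : ℕ}
    (ρ : A →* Matrix (Fin n) (Fin n) K)
    (hρ : ∀ (p : ℕ) (a : A), p.Prime → orderOf a = p → IsUnit (ρ a - 1)) :
    ∃ φ : A →* MulAut (Multiplicative (Fin n → K)),
      ∀ a : A, a ≠ 1 → ∀ x, φ a x = x → x = 1 := by
  let E : A → AddAut (Fin n → K) := fun a =>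
    { toFun := fun x => (ρ a).mulVec x
      invFun := fun x => (ρ a⁻¹).mulVec x
      left_inv := fun x => by simp [Matrix.mulVec_mulVec, ← map_mul]
      right_inv := fun x => by simp [Matrix.mulVec_mulVec, ← map_mul]
      map_add' := fun x y => Matrix.mulVec_add _ x y }
  let φ : A →* MulAut (Multiplicative (Fin n → K)) :=
    { toFun := fun a => AddEquiv.toMultiplicative (E a)
      map_one' := by ext x; simp [E]
      map_mul' := fun a b => by ext x; simp [E, Matrix.mulVec_mulVec] }
  refine ⟨φ, ?_⟩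
  intro a ha x hx
  obtain ⟨p, hp, hpd⟩ := Nat.exists_prime_and_dvd (mt orderOf_eq_one_iff.1 ha)
  have hord : orderOf (a ^ (orderOf a / p)) = p :=
    orderOf_pow_orderOf_div (orderOf_pos a).ne' hpd
  have hfix : ∀ k : ℕ, (ρ (a ^ k)).mulVec (Multiplicative.toAdd x) = Multiplicative.toAdd x := by
    have h1 : (ρ a).mulVec (Multiplicative.toAdd x) = Multiplicative.toAdd x :=
      congrArg Multiplicative.toAdd hx
    intro k
    induction k with
    | zero => simp
    | succ k ih => rw [pow_succ, map_mul, ← Matrix.mulVec_mulVec, h1, ih]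
  obtain ⟨U, hU⟩ := hρ p _ hp hord
  have h0 : (U : Matrix (Fin n) (Fin n) K).mulVec (Multiplicative.toAdd x) = 0 := by
    rw [hU, Matrix.sub_mulVec, hfix, Matrix.one_mulVec, sub_self]
  have h2 := congrArg (((U⁻¹ : _ˣ) : Matrix (Fin n) (Fin n) K).mulVec) h0
  rw [Matrix.mulVec_mulVec, Units.inv_mul, Matrix.one_mulVec, Matrix.mulVec_zero] at h2
  exact toAdd_eq_zero.1 h2

/-- A matrix fixed-point-free representation over a finite ring gives a Frobenius group. -/
theorem exists_fc_of_isMatFPF {A : Type u} [Group A] [Finite A] [Nontrivial A] {K : Type v}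
    [CommRing K] [Finite K] [Nontrivial K] (h : IsMatFPF A K) :
    ∃ (L : Type) (_ : Group L) (_ : Finite L) (C : Subgroup L),
      Cfsg.IsFrobeniusComplement C ∧ Nonempty (A ≃* C) := by
  obtain ⟨n, ρ, hn, hρ⟩ := h
  haveI : Nonempty (Fin n) := ⟨⟨0, hn⟩⟩
  obtain ⟨φ, hφ⟩ := exists_mulAut_of_matrix ρ hρ
  obtain ⟨L, i1, i2, C, hC, e, -⟩ := exists_fc_of_fpf φ hφ
  exact ⟨L, i1, i2, C, hC, e⟩

/-- A finite multiplicative group in a torsion-free ring with vanishing prime geometric sums has
fixed-point-free matrix representations modulo every prime not dividing its order. -/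
theorem isMatFPF_of_torsionFree {A : Type u} [Group A] [Finite A] {R : Type v} [Ring R]
    [Nontrivial R] [IsAddTorsionFree R] (f : A →* R)
    (he : ∀ (p : ℕ) (a : A), p.Prime → orderOf a = p → ∑ i ∈ Finset.range p, f a ^ i = 0)
    (r : ℕ) [Fact r.Prime] (hr : ¬ r ∣ Nat.card A) : IsMatFPF A (ZMod r) := by
  let M : Submodule ℤ R := Submodule.span ℤ (Set.range f)
  have h1 : (1 : R) ∈ M := Submodule.subset_span ⟨1, map_one f⟩
  have hmul : ∀ x y : R, x ∈ M → y ∈ M → x * y ∈ M := by
    intro x y hx hy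
    have := Submodule.mul_mem_mul hx hy
    rw [Submodule.span_mul_span] at this
    refine Submodule.span_mono ?_ this
    rintro _ ⟨_, ⟨a, rfl⟩, _, ⟨b, rfl⟩, rfl⟩
    exact ⟨a * b, map_mul f a b⟩
  let S : Subalgebra ℤ R := M.toSubalgebra h1 hmul
  haveI : Module.Finite ℤ S :=
    Module.Finite.iff_fg.2 (Submodule.fg_span (Set.finite_range f) : M.FG)
  haveI : IsAddTorsionFree S := Function.Injective.isAddTorsionFree S.val.toAddMonoidHom Subtype.val_injective
  haveI : Module.Free ℤ S := Module.free_of_finite_type_torsion_free'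
  let b := (Module.finBasis ℤ S)
  let f' : A →* S :=
    { toFun := fun a => ⟨f a, Submodule.subset_span ⟨a, rfl⟩⟩
      map_one' := Subtype.ext (map_one f)
      map_mul' := fun a b => Subtype.ext (map_mul f a b) }
  let T : S →+* Matrix (Fin (Module.finrank ℤ S)) (Fin (Module.finrank ℤ S)) (ZMod r) :=
    ((Int.castRingHom (ZMod r)).mapMatrix).comp (Algebra.leftMulMatrix b).toRingHom
  refine ⟨Module.finrank ℤ S, T.toMonoidHom.comp f', Module.finrank_pos, fun p a hp ha => ?_⟩
  refine isUnit_sub_one_of_geom_sum _ p ?_ ?_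
  · have h : (∑ i ∈ Finset.range p, f' a ^ i : S) = 0 := by
      apply Subtype.ext
      push_cast
      exact he p a hp ha
    have := congrArg T h
    simpa using this
  · have hpr : (p : ZMod r) ≠ 0 := by
      rw [Ne, ZMod.natCast_eq_zero_iff]
      exact fun hd => hr (hd.trans (ha ▸ orderOf_dvd_natCard a))
    simpa using (hpr.isUnit.map (algebraMap (ZMod r)
      (Matrix (Fin (Module.finrank ℤ S)) (Fin (Module.finrank ℤ S)) (ZMod r))))

end Cfsg.Agent.H90
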