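import Mathlib

set_option autoImplicit false

namespace Cfsg.Agent.H90

/-- Anticommuting maps `X`, `Y` with `X² = -1` force square order on an odd abelian group. -/
theorem isSquare_card_of_anticommuting {V : Type*} [AddCommGroup V] [Finite V] (X Y : V →+ V)
    (hY : Function.Injective Y) (hodd : Odd (Nat.card V)) (hXX : ∀ v, X (X v) = -v)
    (hYX : ∀ v, Y (X v) = -X (Y v)) : IsSquare (Nat.card V) := by
  generalize hn : Nat.card V = n
  induction n using Nat.strong_induction_on generalizing V with
  | _ n ih =>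
  rcases Nat.lt_or_ge n 2 with h | h
  · interval_cases n
    · simp [hn] at hodd
    · exact ⟨1, rfl⟩
  obtain ⟨p, hp, hpn⟩ := Nat.exists_prime_and_dvd (show n ≠ 1 by omega)
  haveI : Fact p.Prime := ⟨hp⟩
  have hp2 : p ≠ 2 := fun h2 => by
    subst h2
    exact (Nat.not_even_iff_odd.2 hodd) (even_iff_two_dvd.2 (hn ▸ hpn))
  let m : V →+ V := nsmulAddMonoidHom p
  have hker : ∀ (f : V →+ V), ∀ v ∈ m.ker, f v ∈ m.ker := fun f v hv => by
    change p • f v = 0
    rw [← map_nsmul, show p • v = 0 from hv, map_zero]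
  have hran : ∀ (f : V →+ V), ∀ v ∈ m.range, f v ∈ m.range := by
    rintro f _ ⟨w, rfl⟩
    exact ⟨f w, (map_nsmul f p w).symm⟩
  have hcard : Nat.card m.range * Nat.card m.ker = n := by
    rw [← hn, AddSubgroup.card_eq_card_quotient_mul_card_addSubgroup m.ker,
      Nat.card_congr (QuotientAddGroup.quotientKerEquivRange m).toEquiv]
  have hlt : Nat.card m.range < n := by
    obtain ⟨v, hv⟩ := exists_prime_addOrderOf_dvd_card' (G := V) p (hn ▸ hpn)
    have h1 : 1 < Nat.card m.ker := by
      refine (AddSubgroup.one_lt_card_iff_ne_bot _).2 fun hb => ?_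
      have : v ∈ m.ker := by change p • v = 0; rw [← hv]; exact addOrderOf_nsmul_eq_zero v
      rw [hb, AddSubgroup.mem_bot] at this
      rw [this, addOrderOf_zero] at hv
      exact hp.ne_one hv.symm
    calc Nat.card m.range = Nat.card m.range * 1 := (mul_one _).symm
      _ < Nat.card m.range * Nat.card m.ker := Nat.mul_lt_mul_of_pos_left h1 Nat.card_pos
      _ = n := hcard
  rw [← hcard]
  refine IsSquare.mul (ih _ hlt ((X.comp m.range.subtype).codRestrict _ fun v => hran X v v.2)
    ((Y.comp m.range.subtype).codRestrict _ fun v => hran Y v v.2)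
    (fun a b hab => Subtype.ext (hY (congrArg Subtype.val hab)))
    (hodd.of_dvd_nat (AddSubgroup.card_addSubgroup_dvd_card _))
    (fun v => Subtype.ext (hXX v)) (fun v => Subtype.ext (hYX v)) rfl) ?_
  letI instM : Module (ZMod p) m.ker := AddCommGroup.zmodModule (n := p) (G := m.ker) fun v =>
    Subtype.ext (show p • (v : V) = 0 from v.2)
  haveI : SMulCommClass (ZMod p) (ZMod p) m.ker := smulCommClass_self _ _
  let X' : m.ker →ₗ[ZMod p] m.ker :=
    ((X.comp m.ker.subtype).codRestrict _ fun v => hker X v v.2).toZModLinearMap p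
  let Y' : m.ker →ₗ[ZMod p] m.ker :=
    ((Y.comp m.ker.subtype).codRestrict _ fun v => hker Y v v.2).toZModLinearMap p
  have h1 : X' ∘ₗ X' = (-1 : ZMod p) • (LinearMap.id : m.ker →ₗ[ZMod p] m.ker) :=
    LinearMap.ext fun v => Subtype.ext (by
      rw [LinearMap.smul_apply, neg_one_smul (R := ZMod p), LinearMap.id_apply]
      exact hXX (v : V))
  have h2 : Y' ∘ₗ X' = (-1 : ZMod p) • (X' ∘ₗ Y') :=
    LinearMap.ext fun v => Subtype.ext (by
      rw [LinearMap.smul_apply, neg_one_smul (R := ZMod p)]
      exact hYX (v : V))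
  have hdX : LinearMap.det X' ≠ 0 := by
    intro h0
    have := congrArg LinearMap.det h1
    rw [LinearMap.det_comp, h0, zero_mul, LinearMap.det_smul, LinearMap.det_id, mul_one] at this
    exact pow_ne_zero _ (neg_ne_zero.2 one_ne_zero) this.symm
  have hdY : LinearMap.det Y' ≠ 0 := by
    have hinj : Function.Injective Y' := fun a b (hab : Y' a = Y' b) =>
      Subtype.ext (hY (show Y a = Y b from congrArg Subtype.val hab))
    exact (LinearEquiv.ofBijective Y' (Finite.injective_iff_bijective.1 hinj)).isUnit_det'.ne_zero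
  have h3 := congrArg LinearMap.det h2
  rw [LinearMap.det_comp, LinearMap.det_smul, LinearMap.det_comp,
    mul_comm (LinearMap.det Y')] at h3
  nth_rewrite 1 [← one_mul (LinearMap.det X' * LinearMap.det Y')] at h3
  have h4 := mul_right_cancel₀ (mul_ne_zero hdX hdY) h3
  have heven : Even (Module.finrank (ZMod p) m.ker) := by
    rw [← neg_one_pow_eq_one_iff_even (R := ZMod p) (Ring.neg_one_ne_one_of_char_ne_two (by rw [ringChar.eq (ZMod p) p]; exact hp2))]
    · exact h4.symm
  rw [Module.natCard_eq_pow_finrank (K := ZMod p), Nat.card_zmod]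
  exact heven.isSquare_pow _

end Cfsg.Agent.H90
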