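import Mathlib

set_option autoImplicit false

namespace Cfsg.Agent.H90

variable {H K V : Type*} [Group H] [Field K] [AddCommGroup V] [Module K V]

/-- `v` is a joint eigenvector of the subgroup `Z` with character `l`. -/
def IsEig (ρ : H →* Module.End K V) (Z : Subgroup H) (l : Z →* Kˣ) (v : V) : Prop :=
  ∀ z : Z, ρ z v = (l z : K) • v

/-- The averaging operator attached to a character. -/
noncomputable def eigProj (ρ : H →* Module.End K V) (Z : Subgroup H) [Fintype Z] (l : Z →* Kˣ) :
    Module.End K V :=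
  (Fintype.card Z : K)⁻¹ • ∑ z : Z, ((l z)⁻¹ : Kˣ).val • ρ z

variable (ρ : H →* Module.End K V) (Z : Subgroup H) [Fintype Z]

/-- A nontrivial character sums to zero. -/
theorem sum_char_eq_zero (χ : Z →* Kˣ) (hχ : χ ≠ 1) : ∑ z : Z, (χ z : K) = 0 := by
  obtain ⟨w, hw⟩ : ∃ w, χ w ≠ 1 := by
    by_contra hcon
    simp only [not_exists, ne_eq, not_not] at hcon
    exact hχ (MonoidHom.ext hcon)
  have h : (χ w : K) * ∑ z : Z, (χ z : K) = ∑ z : Z, (χ z : K) := by
    rw [Finset.mul_sum]
    exact Fintype.sum_equiv (Equiv.mulLeft w) _ _ fun z => by simp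
  have h1 : ((χ w : K) - 1) * ∑ z : Z, (χ z : K) = 0 := by rw [sub_mul, h, one_mul, sub_self]
  exact (mul_eq_zero.1 h1).resolve_left (sub_ne_zero.2 fun e => hw (Units.ext e))

/-- The projection fixes its own eigenvectors. -/
theorem eigProj_self (hcard : (Fintype.card Z : K) ≠ 0) {l : Z →* Kˣ} {v : V}
    (hv : IsEig ρ Z l v) : eigProj ρ Z l v = v := by
  simp only [eigProj, LinearMap.smul_apply, LinearMap.sum_apply]
  rw [Finset.sum_congr rfl fun z _ => by rw [hv z, smul_smul, Units.inv_mul, one_smul]]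
  rw [Finset.sum_const, Finset.card_univ, ← Nat.cast_smul_eq_nsmul K, smul_smul,
    inv_mul_cancel₀ hcard, one_smul]

/-- The projection kills eigenvectors of other characters. -/
theorem eigProj_other {l m : Z →* Kˣ} (hlm : m ≠ l) {v : V} (hv : IsEig ρ Z m v) :
    eigProj ρ Z l v = 0 := by
  simp only [eigProj, LinearMap.smul_apply, LinearMap.sum_apply]
  rw [Finset.sum_congr rfl fun z _ => by rw [hv z, smul_smul], ← Finset.sum_smul]
  have h := sum_char_eq_zero Z (m / l) (fun h => hlm (div_eq_one.1 h))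
  rw [Finset.sum_congr rfl fun z _ => show ((l z)⁻¹ : Kˣ).val * (m z : K) = ((m / l) z : K) by
    rw [MonoidHom.div_apply, div_eq_mul_inv, Units.val_mul, mul_comm], h, zero_smul, smul_zero]

/-- Eigenvectors of two distinct characters do not cancel: from `∑ vᵢ = 0` the part at `l` is zero. -/
theorem eq_zero_of_sum_eq_zero (hcard : (Fintype.card Z : K) ≠ 0) {ι : Type*} (s : Finset ι)
    (m : ι → (Z →* Kˣ)) (v : ι → V) (hv : ∀ i ∈ s, IsEig ρ Z (m i) (v i))
    (hsum : ∑ i ∈ s, v i = 0) {i : ι} (hi : i ∈ s) (hd : ∀ j ∈ s, j ≠ i → m j ≠ m i) :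
    v i = 0 := by
  have h := congrArg (eigProj ρ Z (m i)) hsum
  rw [map_sum, map_zero, Finset.sum_eq_single i
    (fun j hj hne => eigProj_other ρ Z (hd j hj hne) (hv j hj)) (fun h => absurd hi h),
    eigProj_self ρ Z hcard (hv i hi)] at h
  exact h

variable [IsMulCommutative Z] [HasEnoughRootsOfUnity K (Monoid.exponent Z)]

/-- Joint eigenvectors of an abelian subgroup span: an operator killing all of them is zero. -/
theorem eq_zero_of_forall_isEig (hcard : (Fintype.card Z : K) ≠ 0) {W : Type*} [AddCommGroup W]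
    [Module K W] (F : V →ₗ[K] W) (hF : ∀ (l : Z →* Kˣ) (v : V), IsEig ρ Z l v → F v = 0) :
    F = 0 := by
  classical
  let _ : CommGroup Z := { (inferInstance : Group Z) with mul_comm := IsMulCommutative.is_comm.comm }
  haveI : Finite (Z →* Kˣ) := Nat.finite_of_card_ne_zero (by
    rw [CommGroup.card_monoidHom_of_hasEnoughRootsOfUnity Z K]; exact Nat.card_pos.ne')
  let _ : Fintype (Z →* Kˣ) := Fintype.ofFinite _
  refine LinearMap.ext fun v => ?_
  have hsum : ∑ l : Z →* Kˣ, eigProj ρ Z l v = v := by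
    simp only [eigProj, LinearMap.smul_apply, LinearMap.sum_apply]
    rw [← Finset.smul_sum, Finset.sum_comm, Finset.sum_eq_single (1 : Z)]
    · simp only [map_one, inv_one, Units.val_one, one_smul, OneMemClass.coe_one,
        Module.End.one_apply]
      rw [Finset.sum_const, Finset.card_univ, ← Nat.cast_smul_eq_nsmul K, smul_smul,
        ← Nat.card_eq_fintype_card, ← Nat.card_eq_fintype_card,
        CommGroup.card_monoidHom_of_hasEnoughRootsOfUnity Z K, Nat.card_eq_fintype_card,
        inv_mul_cancel₀ hcard, one_smul]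
    · intro z _ hz
      obtain ⟨w, hw⟩ := CommGroup.exists_apply_ne_one_of_hasEnoughRootsOfUnity Z K
        (inv_ne_one.2 hz)
      rw [← Finset.sum_smul]
      convert zero_smul K _
      have h : (w z⁻¹ : K) * ∑ l : Z →* Kˣ, ((l z)⁻¹ : Kˣ).val =
          ∑ l : Z →* Kˣ, ((l z)⁻¹ : Kˣ).val := by
        rw [Finset.mul_sum]
        exact Fintype.sum_equiv (Equiv.mulLeft w) _ _ fun l => by
          simp [MonoidHom.mul_apply, mul_comm]
      have h1 : ((w z⁻¹ : K) - 1) * ∑ l : Z →* Kˣ, ((l z)⁻¹ : Kˣ).val = 0 := by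
        rw [sub_mul, h, one_mul, sub_self]
      exact (mul_eq_zero.1 h1).resolve_left (sub_ne_zero.2 fun e => hw (Units.ext e))
    · simp
  rw [LinearMap.zero_apply, ← hsum, map_sum]
  refine Finset.sum_eq_zero fun l _ => hF l _ fun w => ?_
  rw [eigProj, LinearMap.smul_apply, LinearMap.sum_apply, map_smul, map_sum, smul_comm (l w : K)]
  congr 1
  rw [Finset.smul_sum]
  refine Fintype.sum_equiv (Equiv.mulLeft w) _ _ fun z => ?_
  rw [LinearMap.smul_apply, LinearMap.smul_apply, map_smul, ← Module.End.mul_apply, ← map_mul,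
    Equiv.coe_mulLeft, smul_smul, map_mul l, _root_.mul_inv_rev, ← Units.val_mul, mul_left_comm,
    mul_inv_cancel, mul_one]
  rfl

/-- If every eigenvector of `Z` is fixed by `ρ h`, then `ρ h = 1`. -/
theorem eq_one_of_forall_isEig (hcard : (Fintype.card Z : K) ≠ 0) (X : Module.End K V)
    (hX : ∀ (l : Z →* Kˣ) (v : V), IsEig ρ Z l v → X v = v) : X = 1 :=
  sub_eq_zero.1 (eq_zero_of_forall_isEig ρ Z hcard (X - 1) fun l v hv => by
    rw [LinearMap.sub_apply, hX l v hv]; simp)

end Cfsg.Agent.H90
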