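import Cfsg.Agent.H90.FpfS3Nilpotent
import Mathlib.GroupTheory.Abelianization.Defs

set_option autoImplicit false

namespace Cfsg.Agent.H90

section Defs

variable {H : Type*} [Group H] (K : Type*) [Field K] {S B : Subgroup H}
  (hn : ∀ b ∈ B, ∀ s ∈ S, b * s * b⁻¹ ∈ S)

/-- Conjugation on a normalized subgroup, inverted. -/
def conjS (b : B) : S →* S :=
  MonoidHom.mk' (fun s => ⟨(b : H)⁻¹ * s * b, by
    simpa using hn _ (B.inv_mem b.2) s s.2⟩) fun x y => Subtype.ext (by
      simp only [Subgroup.coe_mul]; group)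

/-- The action of `B` on the characters of `S`. -/
def actHom : B →* Equiv.Perm (S →* Kˣ) where
  toFun b :=
    { toFun := fun l => l.comp (conjS hn b)
      invFun := fun l => l.comp (conjS hn b⁻¹)
      left_inv := fun l => MonoidHom.ext fun s => congrArg l (Subtype.ext (by simp [conjS]; group))
      right_inv := fun l => MonoidHom.ext fun s => congrArg l (Subtype.ext (by simp [conjS]; group)) }
  map_one' := Equiv.ext fun l => MonoidHom.ext fun s => congrArg l (Subtype.ext (by simp [conjS]))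
  map_mul' x y := Equiv.ext fun l => MonoidHom.ext fun s => congrArg l (Subtype.ext (by
    simp [conjS]; group))

variable (hc : ∀ a ∈ B, ∀ b ∈ B, ∀ s ∈ S, a * b * a⁻¹ * b⁻¹ * s = s * (a * b * a⁻¹ * b⁻¹))
include hc

theorem commutator_le_ker_actHom : commutator B ≤ (actHom K hn).ker := by
  rw [commutator_def, Subgroup.commutator_le]
  intro a _ b _
  rw [MonoidHom.mem_ker]
  refine Equiv.ext fun l => MonoidHom.ext fun s => congrArg l (Subtype.ext ?_)
  change ((a : H) * b * (a : H)⁻¹ * (b : H)⁻¹)⁻¹ * s * (a * b * (a : H)⁻¹ * (b : H)⁻¹) = s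
  rw [mul_assoc, ← hc a a.2 b b.2 s s.2, inv_mul_cancel_left]

/-- The action of the abelianization of `B` on the characters of `S`. -/
def qact : Abelianization B →* Equiv.Perm (S →* Kˣ) :=
  QuotientGroup.lift (commutator B) (actHom K hn) (commutator_le_ker_actHom K hn hc)

theorem qact_of (b : B) (l : S →* Kˣ) (s : S) :
    qact K hn hc (Abelianization.of b) l s = l (conjS hn b s) := rfl

omit hc in
/-- Pulling a character back along an automorphism. -/
def pull (a : MulAut H) (ha : ∀ s ∈ S, a s ∈ S) (l : S →* Kˣ) : S →* Kˣ :=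
  l.comp ((a.toMonoidHom.comp S.subtype).codRestrict S fun s => ha s s.2)

omit hc in
/-- The endomorphism induced on the abelianization. -/
def qmap (a : MulAut H) (ha : ∀ b ∈ B, a b ∈ B) : Abelianization B →* Abelianization B :=
  Abelianization.map ((a.toMonoidHom.comp B.subtype).codRestrict B fun b => ha b b.2)

theorem qact_comm (x y : Abelianization B) (l : S →* Kˣ) :
    qact K hn hc x (qact K hn hc y l) = qact K hn hc y (qact K hn hc x l) := by
  rw [← Equiv.Perm.mul_apply, ← map_mul, mul_comm, map_mul, Equiv.Perm.mul_apply]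

theorem qact_pow (x y : Abelianization B) (l : S →* Kˣ)
    (h : qact K hn hc x l = qact K hn hc y l) (n : ℕ) :
    qact K hn hc (x ^ n) l = qact K hn hc (y ^ n) l := by
  induction n with
  | zero => simp
  | succ n ih =>
    rw [pow_succ, map_mul, Equiv.Perm.mul_apply, h, qact_comm K hn hc, ih, pow_succ', map_mul,
      Equiv.Perm.mul_apply]

end Defs

namespace IsFpfS3

variable {H K V : Type*} [Group H] [Field K] [AddCommGroup V] [Module K V]
  {ρ : H →* Module.End K V} {θ t : MulAut H} {Θ T : Module.End K V}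
  (hA : IsFpfS3 ρ θ t Θ T) [Finite H]
include hA

/-- Every element of the abelianization has a root of each degree dividing six. -/
theorem exists_root {B : Subgroup H} (x : Abelianization B) (k : ℕ) (hk : k ∣ 6) :
    ∃ m : ℕ, (x ^ k) ^ m = x ∧ ∀ y : Abelianization B, orderOf y ∣ orderOf x → (y ^ k) ^ m = y := by
  have h : (orderOf x).Coprime 6 := hA.cop.coprime_dvd_left
    ((orderOf_dvd_natCard x).trans ((Subgroup.card_quotient_dvd_card _).trans B.card_subgroup_dvd_card))
  obtain ⟨m, hm⟩ := exists_pow_eq_self_of_coprime (x := x) ((h.coprime_dvd_right hk).symm)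
  refine ⟨m, hm, fun y hy => ?_⟩
  rw [← pow_mul] at hm ⊢
  conv_rhs => rw [← pow_one y]
  rw [pow_eq_pow_iff_modEq]
  exact ((pow_eq_pow_iff_modEq).1 (hm.trans (pow_one x).symm)).of_dvd hy

variable {S B : Subgroup H} (hn : ∀ b ∈ B, ∀ s ∈ S, b * s * b⁻¹ ∈ S)
  (hc : ∀ a ∈ B, ∀ b ∈ B, ∀ s ∈ S, a * b * a⁻¹ * b⁻¹ * s = s * (a * b * a⁻¹ * b⁻¹))
  (hSθ : ∀ s ∈ S, θ s ∈ S) (hSt : ∀ s ∈ S, t s ∈ S)
  (hBθ : ∀ b ∈ B, θ b ∈ B) (hBt : ∀ b ∈ B, t b ∈ B)

local notation "P" => pull K θ hSθ
local notation "J" => pull K t hSt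
local notation "θQ" => qmap θ hBθ
local notation "tQ" => qmap t hBt
local notation "Ψ" => qact K hn hc

theorem pull_th3 (l : S →* Kˣ) : P (P (P l)) = l :=
  MonoidHom.ext fun s => congrArg l (Subtype.ext (hA.th3 s))

theorem pull_t2 (l : S →* Kˣ) : J (J l) = l :=
  MonoidHom.ext fun s => congrArg l (Subtype.ext (hA.t2 s))

theorem pull_PJ (l : S →* Kˣ) : P (J l) = J (P (P l)) :=
  MonoidHom.ext fun s => congrArg l (Subtype.ext (hA.tth s))

theorem qmap_th3 (x : Abelianization B) : θQ (θQ (θQ x)) = x := by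
  induction x using QuotientGroup.induction_on with
  | H b => exact congrArg Abelianization.of (Subtype.ext (hA.th3 b))

theorem qmap_t2 (x : Abelianization B) : tQ (tQ x) = x := by
  induction x using QuotientGroup.induction_on with
  | H b => exact congrArg Abelianization.of (Subtype.ext (hA.t2 b))

theorem qmap_tth (x : Abelianization B) : tQ (θQ x) = θQ (θQ (tQ x)) := by
  induction x using QuotientGroup.induction_on with
  | H b => exact congrArg Abelianization.of (Subtype.ext (hA.tth b))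

theorem pull_qact_theta (x : Abelianization B) (l : S →* Kˣ) :
    P (Ψ x l) = Ψ (θQ (θQ x)) (P l) := by
  induction x using QuotientGroup.induction_on with
  | H b => exact MonoidHom.ext fun s => congrArg l (Subtype.ext (by
      change (b : H)⁻¹ * θ s * b = θ ((θ (θ (b : H)))⁻¹ * s * θ (θ (b : H)))
      simp only [map_mul, map_inv, hA.th3]))

theorem pull_qact_t (x : Abelianization B) (l : S →* Kˣ) :
    J (Ψ x l) = Ψ (tQ x) (J l) := by
  induction x using QuotientGroup.induction_on with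
  | H b => exact MonoidHom.ext fun s => congrArg l (Subtype.ext (by
      change (b : H)⁻¹ * t s * b = t ((t (b : H))⁻¹ * s * t (b : H))
      simp only [map_mul, map_inv, hA.t2]))

variable [IsMulCommutative S] [Fintype S]
include hn hc hSθ hSt hBθ hBt

/-- A character fixed by the rotation and moved by the involution inside its orbit is trivial. -/
theorem eq_one_of_orbit_t {l : S →* Kˣ} (h1 : P l = l) (x : Abelianization B)
    (h2 : J l = Ψ x l) : l = 1 := by
  obtain ⟨k, -, hk⟩ := hA.exists_root x 2 (by norm_num)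
  have hk' : x ^ k * x ^ k = x := by rw [← pow_two, ← pow_mul, mul_comm, pow_mul]; exact hk x dvd_rfl
  have e1 : Ψ (θQ (θQ x)) l = Ψ x l := by
    have := congrArg (pull K θ hSθ) h2
    rw [hA.pull_qact_theta hn hc hSθ hBθ, hA.pull_PJ hSθ hSt, h1, h1, h2] at this
    exact this.symm
  have e2 : Ψ (tQ x) l = Ψ x⁻¹ l := by
    have := congrArg (pull K t hSt) h2
    rw [hA.pull_t2 hSt, hA.pull_qact_t hn hc hSt hBt, h2, qact_comm K hn hc] at this
    conv_rhs => rw [this]
    rw [← Equiv.Perm.mul_apply, ← map_mul, inv_mul_cancel, map_one]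
    rfl
  have hθ : P (Ψ (x ^ k) l) = Ψ (x ^ k) l := by
    rw [hA.pull_qact_theta hn hc hSθ hBθ, h1, map_pow θQ, map_pow θQ, qact_pow K hn hc _ _ l e1]
  have ht : J (Ψ (x ^ k) l) = Ψ (x ^ k) l := by
    rw [hA.pull_qact_t hn hc hSt hBt, h2, qact_comm K hn hc, map_pow tQ,
      qact_pow K hn hc _ _ l e2, ← Equiv.Perm.mul_apply, ← map_mul]
    congr 2
    rw [inv_pow, mul_inv_eq_iff_eq_mul, hk']
  have h := hA.eq_one_of_fixes hSθ hSt inferInstance (l := Ψ (x ^ k) l)
    (fun z _ => DFunLike.congr_fun hθ z) (fun z _ => DFunLike.congr_fun ht z)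
  refine (Ψ (x ^ k)).injective (h.trans ?_)
  induction x ^ k using QuotientGroup.induction_on with
  | H b => exact MonoidHom.ext fun s => rfl

/-- An orbit stable under the rotation contains a character fixed by it. -/
theorem exists_fixed_in_orbit {l : S →* Kˣ} (u : Abelianization B) (h : P l = Ψ u l) :
    ∃ b, P (Ψ b l) = Ψ b l := by
  obtain ⟨k, -, hk⟩ := hA.exists_root u 3 (by norm_num)
  have h2 : P (P l) = Ψ (θQ (θQ u) * u) l := by
    rw [map_mul, Equiv.Perm.mul_apply, ← h, ← hA.pull_qact_theta hn hc hSθ hBθ, ← h]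
  have h3 : Ψ (θQ u * (θQ (θQ u) * u)) l = l := by
    have := congrArg (pull K θ hSθ) h2
    rw [hA.pull_th3 hSθ, hA.pull_qact_theta hn hc hSθ hBθ, h, ← Equiv.Perm.mul_apply, ← map_mul,
      map_mul θQ, map_mul θQ, hA.qmap_th3 hBθ, mul_assoc] at this
    exact this.symm
  set p := θQ (θQ u) * θQ u * θQ u with hp
  have e : Ψ (p * u ^ 3) l = Ψ (θQ (θQ p)) l := by
    rw [show p * u ^ 3 = θQ (θQ p) * (θQ u * (θQ (θQ u) * u)) by
      simp only [hp, map_mul, hA.qmap_th3 hBθ, pow_three']; ac_rfl,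
      map_mul, Equiv.Perm.mul_apply, h3]
  refine ⟨(p ^ k)⁻¹, ?_⟩
  have e' := qact_pow K hn hc _ _ l e k
  rw [mul_pow, hk u dvd_rfl] at e'
  rw [hA.pull_qact_theta hn hc hSθ hBθ, h, map_inv θQ, map_inv θQ, map_pow θQ, map_pow θQ]
  refine (Ψ ((θQ (θQ p)) ^ k * p ^ k)).injective ?_
  simp only [← Equiv.Perm.mul_apply, ← map_mul, mul_assoc]
  rw [show θQ (θQ p) ^ k * (p ^ k * ((θQ (θQ p) ^ k)⁻¹ * u)) = p ^ k * u by
    rw [mul_left_comm, mul_inv_cancel_left],
    show θQ (θQ p) ^ k * (p ^ k * (p ^ k)⁻¹) = θQ (θQ p) ^ k by rw [mul_inv_cancel, mul_one], e']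

variable (hcard : (Fintype.card S : K) ≠ 0)
include hcard

theorem isEig_qact {l : S →* Kˣ} {v : V} (hv : IsEig ρ S l v) (b : B) :
    IsEig ρ S (Ψ (Abelianization.of b) l) (ρ b v) := fun s => by
  rw [qact_of, ← map_smul, ← hv, ← Module.End.mul_apply, ← Module.End.mul_apply, ← map_mul,
    ← map_mul]
  congr 2
  change (s : H) * b = b * ((b : H)⁻¹ * s * b)
  group

theorem exists_fixes_qact {l : S →* Kˣ} {v : V} (hv : IsEig ρ S l v) (hv0 : v ≠ 0)
    (x : Abelianization B) :
    P (Ψ x l) = Ψ x l ∨ J (Ψ x l) = Ψ x l ∨ J (P (Ψ x l)) = Ψ x l ∨ J (P (P (Ψ x l))) = Ψ x l := by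
  induction x using QuotientGroup.induction_on with
  | H b =>
    have hv' : ρ b v ≠ 0 := fun e => hv0 (by
      have := congrArg (ρ (b : H)⁻¹) e
      rwa [← Module.End.mul_apply, ← map_mul, inv_mul_cancel, map_one, map_zero] at this)
    rcases hA.exists_fixes hSθ hSt hcard (hA.isEig_qact hn hc hSθ hSt hBθ hBt hcard hv b) hv'
      with h | h | h | h
    · exact Or.inl (MonoidHom.ext fun s => h s _)
    · exact Or.inr (Or.inl (MonoidHom.ext fun s => h s _))
    · exact Or.inr (Or.inr (Or.inl (MonoidHom.ext fun s => h s (hSθ _ (hSt _ s.2)))))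
    · exact Or.inr (Or.inr (Or.inr (MonoidHom.ext fun s =>
        h s (hSθ _ (hSθ _ (hSt _ s.2))))))

/-- The orbit of a character fixed by the rotation consists of such characters. -/
theorem theta_orbit {l : S →* Kˣ} {v : V} (hv : IsEig ρ S l v) (hv0 : v ≠ 0) (h1 : P l = l)
    (x : Abelianization B) : P (Ψ x l) = Ψ x l := by
  have hJ : ∀ y, J l = Ψ y l → P (Ψ x l) = Ψ x l := fun y hy => by
    obtain rfl := hA.eq_one_of_orbit_t hn hc hSθ hSt hBθ hBt h1 y hy
    have hone : Ψ x (1 : S →* Kˣ) = 1 := by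
      induction x using QuotientGroup.induction_on with
      | H b => exact MonoidHom.ext fun s => rfl
    rw [hone]; rfl
  rcases hA.exists_fixes_qact hn hc hSθ hSt hBθ hBt hcard hv hv0 x with h | h | h | h
  · exact h
  · refine hJ ((tQ x)⁻¹ * x) ?_
    rw [hA.pull_qact_t hn hc hSt hBt] at h
    rw [map_mul, Equiv.Perm.mul_apply, ← h, ← Equiv.Perm.mul_apply, ← map_mul, inv_mul_cancel,
      map_one]
    rfl
  · refine hJ ((tQ (θQ (θQ x)))⁻¹ * x) ?_
    rw [hA.pull_qact_theta hn hc hSθ hBθ, h1, hA.pull_qact_t hn hc hSt hBt] at h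
    rw [map_mul, Equiv.Perm.mul_apply, ← h, ← Equiv.Perm.mul_apply, ← map_mul, inv_mul_cancel,
      map_one]
    rfl
  · refine hJ ((tQ (θQ x))⁻¹ * x) ?_
    rw [hA.pull_qact_theta hn hc hSθ hBθ, h1, hA.pull_qact_theta hn hc hSθ hBθ, h1,
      hA.pull_qact_t hn hc hSt hBt, hA.qmap_th3 hBθ] at h
    rw [map_mul, Equiv.Perm.mul_apply, ← h, ← Equiv.Perm.mul_apply, ← map_mul, inv_mul_cancel,
      map_one]
    rfl

/-- A character fixed by the rotation is fixed by `B`. -/
theorem fixed_of_theta {l : S →* Kˣ} {v : V} (hv : IsEig ρ S l v) (hv0 : v ≠ 0) (h1 : P l = l)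
    (b : B) : Ψ (Abelianization.of b) l = l := by
  set y := Abelianization.of b
  have hy : ∀ x, Ψ (θQ (θQ x)) l = Ψ x l := fun x => by
    conv_rhs => rw [← hA.theta_orbit hn hc hSθ hSt hBθ hBt hcard hv hv0 h1 x]
    rw [hA.pull_qact_theta hn hc hSθ hBθ, h1]
  have hy' : Ψ (θQ y) l = Ψ y l := by rw [← hy (θQ y), hA.qmap_th3 hBθ]
  let N : Subgroup H := B ⊓ Subgroup.centralizer (S : Set H)
  have hcN : ∀ a ∈ B, ∀ c ∈ B, a * c * a⁻¹ * c⁻¹ ∈ N := fun a ha c hcB =>
    ⟨B.mul_mem (B.mul_mem (B.mul_mem ha hcB) (B.inv_mem ha)) (B.inv_mem hcB),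
      Subgroup.mem_centralizer_iff.2 fun s hs => (hc a ha c hcB s hs).symm⟩
  have hNθ : ∀ n ∈ N, θ n ∈ N := fun n hn' => ⟨hBθ n hn'.1, Subgroup.mem_centralizer_iff.2
    fun s hs => by
      have := congrArg θ (Subgroup.mem_centralizer_iff.1 hn'.2 _ (hSθ _ (hSθ s hs)))
      simpa only [map_mul, hA.th3] using this⟩
  let Y : B := b * ⟨θ b, hBθ b b.2⟩ * ⟨θ (θ b), hBθ _ (hBθ b b.2)⟩
  have hY : (Y : H)⁻¹ * θ Y ∈ N := by
    simp only [Y, Subgroup.coe_mul, map_mul, hA.th3]
    rw [mul_assoc (b : H)]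
    exact swap_congr_mod hcN b.2 (B.mul_mem (hBθ b b.2) (hBθ _ (hBθ b b.2)))
  obtain ⟨c, hcY, hcθ⟩ := hA.exists_fixed N hNθ hY
  have hcB : c ∈ B := by
    have := B.mul_mem Y.2 (show (Y : H)⁻¹ * c ∈ B from hcY.1)
    rwa [mul_inv_cancel_left] at this
  have hcS : ∀ s : S, l (conjS hn ⟨c, hcB⟩ s) = l s := fun s => by
    let sθ : S → S := fun s => ⟨θ s, hSθ s s.2⟩
    let orb : S → S := fun s => s * sθ s * sθ (sθ s)
    have horbθ : ∀ s, θ (orb s : H) = orb s := fun s => by
      have := mul_comm' (sθ s * sθ (sθ s)) s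
      simp only [orb, sθ, Subgroup.coe_mul, map_mul, hA.th3]
      rw [mul_assoc (s : H)]
      exact congrArg Subtype.val this
    have hl : ∀ s, l (orb s) = l s ^ 3 := fun s => by
      have e : ∀ s, l (sθ s) = l s := fun s => DFunLike.congr_fun h1 s
      simp only [orb, map_mul, e, pow_three']
    have e1 : c⁻¹ * (orb s : H) * c = orb s := by
      have ha : θ (c⁻¹ * (orb s : H) * c) = c⁻¹ * (orb s : H) * c := by
        simp only [map_mul, map_inv, hcθ, horbθ]
      have hb := hA.t_eq_inv ha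
      simp only [map_mul, map_inv, hA.t_eq_inv hcθ, hA.t_eq_inv (horbθ s)] at hb
      have hc2 : c ^ 2 ∈ Subgroup.centralizer ({(orb s : H)} : Set H) := by
        rw [Subgroup.mem_centralizer_iff]
        rintro _ rfl
        rw [inv_inv] at hb
        have hb' : c⁻¹ * (orb s : H) * c = (c * (orb s : H)⁻¹ * c⁻¹)⁻¹ := by rw [hb, inv_inv]
        calc (orb s : H) * c ^ 2 = c * (c⁻¹ * (orb s : H) * c) * c := by rw [pow_two]; group
          _ = c * ((c * (orb s : H)⁻¹ * c⁻¹)⁻¹) * c := by rw [hb']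
          _ = c ^ 2 * (orb s : H) := by rw [pow_two]; group
      have := Subgroup.mem_centralizer_iff.1 (hA.mem_of_pow_mem _ 2 (by norm_num) hc2) _ rfl
      rw [mul_assoc, this, inv_mul_cancel_left]
    have e2 : orb (conjS hn ⟨c, hcB⟩ s) = orb s := Subtype.ext (by
      conv_rhs => rw [← e1]
      change c⁻¹ * s * c * θ (c⁻¹ * s * c) * θ (θ (c⁻¹ * s * c)) =
        c⁻¹ * (s * θ s * θ (θ (s : H))) * c
      simp only [map_mul, map_inv, hcθ]
      group)
    have e3 := hl (conjS hn ⟨c, hcB⟩ s)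
    rw [e2, hl] at e3
    rw [← div_eq_one, ← map_div]
    refine hA.units_eq_one l _ 3 (by norm_num) ?_
    rw [map_div, div_pow, ← e3, div_self']
  have hc1 : Ψ (Abelianization.of (⟨c, hcB⟩ : B)) l = l := MonoidHom.ext hcS
  have hYc : Ψ (Abelianization.of Y) l = l := by
    have hk : Ψ (Abelianization.of (Y⁻¹ * ⟨c, hcB⟩)) l = l := MonoidHom.ext fun s => by
      rw [qact_of]
      refine congrArg l (Subtype.ext ?_)
      change ((Y : H)⁻¹ * c)⁻¹ * s * ((Y : H)⁻¹ * c) = s
      rw [mul_assoc, Subgroup.mem_centralizer_iff.1 hcY.2 s s.2, inv_mul_cancel_left]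
    rw [map_mul, map_mul, Equiv.Perm.mul_apply, hc1, map_inv, map_inv, Equiv.Perm.inv_eq_iff_eq]
      at hk
    exact hk.symm
  have h3 : Ψ (y ^ 3) l = l := by
    rw [show Abelianization.of Y = y * θQ y * θQ (θQ y) from rfl, map_mul, map_mul,
      Equiv.Perm.mul_apply, Equiv.Perm.mul_apply, hy y, qact_comm K hn hc (θQ y), hy'] at hYc
    rw [pow_three', map_mul, map_mul, Equiv.Perm.mul_apply, Equiv.Perm.mul_apply]
    exact hYc
  obtain ⟨m, hm, -⟩ := hA.exists_root y 3 (by norm_num)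
  have := qact_pow K hn hc (y ^ 3) 1 l (by rw [h3, map_one]; rfl) m
  rw [hm, one_pow, map_one] at this
  exact this

/-- A character fixed by the involution only is fixed by `B`. -/
theorem fixed_of_t {l : S →* Kˣ} {v : V} (hv : IsEig ρ S l v) (hv0 : v ≠ 0) (h1 : P l ≠ l)
    (h2 : J l = l) (b : B) : Ψ (Abelianization.of b) l = l := by
  have hno : ∀ x, P l ≠ Ψ x l := fun x hx => by
    obtain ⟨z, hz⟩ := hA.exists_fixed_in_orbit hn hc hSθ hSt hBθ hBt x hx
    obtain ⟨b', rfl⟩ := QuotientGroup.mk_surjective z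
    have hv' : ρ b' v ≠ 0 := fun e => hv0 (by
      have := congrArg (ρ (b' : H)⁻¹) e
      rwa [← Module.End.mul_apply, ← map_mul, inv_mul_cancel, map_one, map_zero] at this)
    have hz' := hA.theta_orbit hn hc hSθ hSt hBθ hBt hcard
      (hA.isEig_qact hn hc hSθ hSt hBθ hBt hcard hv b') hv' hz (Abelianization.of b')⁻¹
    rw [← Equiv.Perm.mul_apply, ← map_mul, inv_mul_cancel, map_one] at hz'
    exact h1 hz'
  have hall : ∀ x, J (Ψ x l) = Ψ x l := fun x => by
    rcases hA.exists_fixes_qact hn hc hSθ hSt hBθ hBt hcard hv hv0 x with h | h | h | h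
    · rw [hA.pull_qact_theta hn hc hSθ hBθ] at h
      refine absurd ?_ (hno ((θQ (θQ x))⁻¹ * x))
      rw [map_mul, Equiv.Perm.mul_apply, ← h, ← Equiv.Perm.mul_apply, ← map_mul, inv_mul_cancel,
        map_one]
      rfl
    · exact h
    · have h' := congrArg (pull K t hSt) h
      rw [hA.pull_t2 hSt, hA.pull_qact_theta hn hc hSθ hBθ, hA.pull_qact_t hn hc hSt hBt, h2] at h'
      refine absurd ?_ (hno ((θQ (θQ x))⁻¹ * tQ x))
      rw [map_mul, Equiv.Perm.mul_apply, ← h', ← Equiv.Perm.mul_apply, ← map_mul, inv_mul_cancel,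
        map_one]
      rfl
    · have h' := congrArg (pull K θ hSθ) (congrArg (pull K t hSt) h)
      rw [hA.pull_t2 hSt, hA.pull_th3 hSθ, hA.pull_qact_t hn hc hSt hBt, h2,
        hA.pull_qact_theta hn hc hSθ hBθ] at h'
      refine absurd ?_ (hno ((θQ (θQ (tQ x)))⁻¹ * x))
      rw [map_mul, Equiv.Perm.mul_apply, h', ← Equiv.Perm.mul_apply, ← map_mul, inv_mul_cancel,
        map_one]
      rfl
  have ht : ∀ x, Ψ (tQ x) l = Ψ x l := fun x => by
    conv_rhs => rw [← hall x]
    rw [hA.pull_qact_t hn hc hSt hBt, h2]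
  have hE : ∀ x, Ψ x l * P (Ψ x l) * P (P (Ψ x l)) = 1 := fun x => MonoidHom.ext fun s =>
    hA.rot_prod_eq_one hSθ hSt inferInstance (fun z _ => DFunLike.congr_fun (hall x) z) s
  let N : Subgroup H := B ⊓ Subgroup.centralizer (S : Set H)
  have hcN : ∀ a ∈ B, ∀ c ∈ B, a * c * a⁻¹ * c⁻¹ ∈ N := fun a ha c hcB =>
    ⟨B.mul_mem (B.mul_mem (B.mul_mem ha hcB) (B.inv_mem ha)) (B.inv_mem hcB),
      Subgroup.mem_centralizer_iff.2 fun s hs => (hc a ha c hcB s hs).symm⟩
  have hN : ∀ (a : MulAut H), (∀ x ∈ B, a x ∈ B) → (∀ s ∈ S, a.symm s ∈ S) →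
      ∀ n ∈ N, a n ∈ N := fun a ha ha' n hn' => ⟨ha n hn'.1, Subgroup.mem_centralizer_iff.2
    fun s hs => by
      have := congrArg a (Subgroup.mem_centralizer_iff.1 hn'.2 _ (ha' s hs))
      simpa only [map_mul, MulEquiv.apply_symm_apply] using this⟩
  let b' : B := b * ⟨t b, hBt b b.2⟩
  have hb' : (b' : H) * θ b' * θ (θ (b' : H)) ∈ N :=
    hA.orbit_mem B N hBθ (hN θ hBθ fun s hs => by rw [hA.symm_theta]; exact hSθ _ (hSθ s hs))
      (hN t hBt fun s hs => by rw [hA.symm_t]; exact hSt s hs) inf_le_left hcN b'.2 (by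
        simp only [b', Subgroup.coe_mul, map_mul, hA.t2]
        exact swap_congr_mod hcN b.2 (hBt b b.2))
  set q := Abelianization.of b'
  set β := θQ q
  have hq : tQ q = q := by
    simp only [q, b', map_mul]
    exact (congrArg₂ (· * ·) rfl (hA.qmap_t2 hBt (Abelianization.of b))).trans (mul_comm _ _)
  have hβ : Ψ (θQ β) l = Ψ β l := by
    rw [← ht β, show tQ β = θQ β by rw [hA.qmap_tth hBθ hBt, hq]]
  have hq3 : Ψ (q * β * θQ β) l = l := MonoidHom.ext fun s => by
    rw [show q * β * θQ β = Abelianization.of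
      (b' * ⟨θ b', hBθ _ b'.2⟩ * ⟨θ (θ (b' : H)), hBθ _ (hBθ _ b'.2)⟩) from rfl, qact_of]
    refine congrArg l (Subtype.ext ?_)
    change ((b' : H) * θ b' * θ (θ (b' : H)))⁻¹ * s * ((b' : H) * θ b' * θ (θ (b' : H))) = s
    rw [mul_assoc, Subgroup.mem_centralizer_iff.1 hb'.2 s s.2, inv_mul_cancel_left]
  have hmul : ∀ (x : Abelianization B) (l l' : S →* Kˣ), Ψ x (l * l') = Ψ x l * Ψ x l' :=
    fun x l l' => by
      induction x using QuotientGroup.induction_on with
      | H a => rfl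
  have hβq : Ψ β l = Ψ q l := by
    have h : Ψ β (l * P l * P (P l)) = 1 := by
      have := hE 1
      rw [map_one] at this
      rw [show l * P l * P (P l) = 1 from this]
      induction β using QuotientGroup.induction_on with
      | H a => exact MonoidHom.ext fun s => rfl
    rw [hmul, hmul,
      show Ψ β (P l) = P (Ψ β l) by
        rw [← hβ, hA.pull_qact_theta hn hc hSθ hBθ, hA.qmap_th3 hBθ],
      show Ψ β (P (P l)) = P (P (Ψ q l)) by
        rw [hA.pull_qact_theta hn hc hSθ hBθ, hA.pull_qact_theta hn hc hSθ hBθ,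
          hA.qmap_th3 hBθ]] at h
    have h' := congrArg (pull K θ hSθ) (mul_left_cancel (h.trans (hE β).symm))
    rwa [hA.pull_th3 hSθ, hA.pull_th3 hSθ, eq_comm] at h'
  have hβ3 : Ψ (β ^ 3) l = l := by
    rw [pow_three', map_mul, map_mul, Equiv.Perm.mul_apply, Equiv.Perm.mul_apply]
    conv_rhs => rw [← hq3]
    rw [map_mul, map_mul, Equiv.Perm.mul_apply, Equiv.Perm.mul_apply, hβ, qact_comm K hn hc q,
      qact_comm K hn hc q, hβq]
  obtain ⟨m, hm, -⟩ := hA.exists_root β 3 (by norm_num)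
  have hβ1 := qact_pow K hn hc (β ^ 3) 1 l (by rw [hβ3, map_one]; rfl) m
  rw [hm, one_pow, map_one, hβq] at hβ1
  have hy : Ψ (Abelianization.of b ^ 2) l = l := by
    rw [pow_two, map_mul, Equiv.Perm.mul_apply]
    rw [← ht (Abelianization.of b)]
    rw [← Equiv.Perm.mul_apply, ← map_mul]
    exact hβ1
  obtain ⟨m, hm, -⟩ := hA.exists_root (Abelianization.of b) 2 (by norm_num)
  have := qact_pow K hn hc (Abelianization.of b ^ 2) 1 l (by rw [hy, map_one]; rfl) m
  rw [hm, one_pow, map_one] at this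
  exact this

omit hcard in
/-- A subgroup acting through an abelian group on an invariant abelian subgroup of order invertible
in the ground field centralizes it. -/
theorem commute_of_normalize [IsAlgClosed K] (hcard : (Nat.card S : K) ≠ 0) {b s : H} (hb : b ∈ B)
    (hs : s ∈ S) : b * s = s * b := by
  have hcard' : (Fintype.card S : K) ≠ 0 := by rwa [← Nat.card_eq_fintype_card]
  haveI : NeZero (Monoid.exponent S : K) := ⟨fun h => hcard (by
    obtain ⟨m, hm⟩ := Group.exponent_dvd_nat_card (G := S)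
    rw [hm, Nat.cast_mul, h, zero_mul])⟩
  set z : S := conjS hn ⟨b, hb⟩ ⟨s, hs⟩ / ⟨s, hs⟩
  have hz : z = 1 := Subtype.ext (hA.inj (by
    rw [OneMemClass.coe_one, map_one]
    refine eq_one_of_forall_isEig ρ S hcard' _ fun l v hv => ?_
    rcases eq_or_ne v 0 with rfl | hv0
    · simp
    suffices hfix : qact K hn hc (Abelianization.of (⟨b, hb⟩ : B)) l = l by
      rw [hv z, map_div, ← qact_of K hn hc, hfix, div_self', Units.val_one, one_smul]
    have hrB : ∀ r ∈ B, (θ * t) r ∈ B := fun r hr => hBθ _ (hBt r hr)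
    have hrS : ∀ r ∈ S, (θ * t) r ∈ S := fun r hr => hSθ _ (hSt r hr)
    by_cases h1 : pull K θ hSθ l = l
    · exact hA.fixed_of_theta hn hc hSθ hSt hBθ hBt hcard' hv hv0 h1 ⟨b, hb⟩
    rcases hA.exists_fixes hSθ hSt hcard' hv hv0 with h | h | h | h
    · exact absurd (MonoidHom.ext fun x => h x _) h1
    · exact hA.fixed_of_t hn hc hSθ hSt hBθ hBt hcard' hv hv0 h1
        (MonoidHom.ext fun x => h x _) _
    · exact hA.rot.fixed_of_t hn hc hSθ hrS hBθ hrB hcard' hv hv0 h1
        (MonoidHom.ext fun x => h x _) _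
    · exact hA.rot.rot.fixed_of_t hn hc hSθ (fun r hr => hSθ _ (hrS r hr)) hBθ
        (fun r hr => hBθ _ (hrB r hr)) hcard' hv hv0 h1 (MonoidHom.ext fun x => h x _) _))
  rw [div_eq_one] at hz
  have h : b⁻¹ * s * b = s := congrArg Subtype.val hz
  rw [mul_assoc, inv_mul_eq_iff_eq_mul] at h
  exact h.symm

end IsFpfS3

end Cfsg.Agent.H90
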