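import Cfsg.Agent.H90.EigenChar
import Cfsg.Agent.H20.External

set_option autoImplicit false

namespace Cfsg.Agent.H90

variable {H K V : Type*} [Group H] [Field K] [AddCommGroup V] [Module K V]

/-- A fixed-point-free action of the symmetric group of degree three on a group of order prime to six
and, compatibly, on a faithful module. -/
structure IsFpfS3 (ρ : H →* Module.End K V) (θ t : MulAut H) (Θ T : Module.End K V) : Prop where
  th3 : ∀ h, θ (θ (θ h)) = h
  t2 : ∀ h, t (t h) = h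
  tth : ∀ h, t (θ h) = θ (θ (t h))
  fixH : ∀ h, θ h = h → t h = h → h = 1
  Th3 : ∀ v, Θ (Θ (Θ v)) = v
  T2 : ∀ v, T (T v) = v
  TTh : ∀ v, T (Θ v) = Θ (Θ (T v))
  fixV : ∀ v, Θ v = v → T v = v → v = 0
  cth : ∀ h v, Θ (ρ h v) = ρ (θ h) (Θ v)
  ct : ∀ h v, T (ρ h v) = ρ (t h) (T v)
  inj : Function.Injective ρ
  cop : (Nat.card H).Coprime 6

namespace IsFpfS3

variable {ρ : H →* Module.End K V} {θ t : MulAut H} {Θ T : Module.End K V}
  (hA : IsFpfS3 ρ θ t Θ T)
include hA

/-- The same data with the involution rotated. -/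
theorem rot : IsFpfS3 ρ θ (θ * t) Θ (Θ * T) where
  th3 := hA.th3
  t2 h := by simp only [MulAut.mul_apply, hA.tth, hA.t2, hA.th3]
  tth h := by simp only [MulAut.mul_apply, hA.tth]
  fixH h h1 h2 := hA.fixH h h1 (θ.injective (h2.trans h1.symm))
  Th3 := hA.Th3
  T2 v := by simp only [Module.End.mul_apply, hA.TTh, hA.T2, hA.Th3]
  TTh v := by simp only [Module.End.mul_apply, hA.TTh]
  fixV v h1 h2 := hA.fixV v h1 (by
    have := congrArg (fun x => Θ (Θ x)) (h2.trans h1.symm)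
    simpa only [Module.End.mul_apply, hA.Th3] using this)
  cth := hA.cth
  ct h v := by simp only [Module.End.mul_apply, MulAut.mul_apply, hA.ct, hA.cth]
  inj := hA.inj
  cop := hA.cop

variable [Finite H]

/-- An element with a power prime to `6` in a subgroup lies in it. -/
theorem mem_of_pow_mem (S : Subgroup H) {x : H} (k : ℕ) (hk : k ∣ 6) (hx : x ^ k ∈ S) : x ∈ S := by
  obtain ⟨m, hm⟩ := exists_pow_eq_self_of_coprime
    (((hA.cop.coprime_dvd_left (orderOf_dvd_natCard x)).coprime_dvd_right hk).symm)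
  exact hm ▸ S.pow_mem hx m

/-- A power prime to `6` equal to one. -/
theorem eq_one_of_pow (x : H) (k : ℕ) (hk : k ∣ 6) (hx : x ^ k = 1) : x = 1 := by
  simpa using hA.mem_of_pow_mem ⊥ k hk (by simpa using hx)

/-- Roots of unity of order prime to six. -/
theorem units_eq_one {Z : Subgroup H} (l : Z →* Kˣ) (z : Z) (k : ℕ) (hk : k ∣ 6)
    (h : l z ^ k = 1) : l z = 1 := by
  obtain ⟨m, hm⟩ := exists_pow_eq_self_of_coprime (x := z)
    (((hA.cop.coprime_dvd_left ((Subgroup.orderOf_coe z).symm ▸ orderOf_dvd_natCard (z : H))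
      ).coprime_dvd_right hk).symm)
  rw [← hm, map_pow, map_pow, h, one_pow]

/-- Elements fixed by the rotation are inverted by the involution. -/
theorem t_eq_inv {c : H} (hc : θ c = c) : t c = c⁻¹ := by
  let F : Subgroup H :=
    { carrier := {h | θ h = h}
      one_mem' := map_one θ
      mul_mem' := fun {a b} ha hb => by simp only [Set.mem_setOf_eq] at *; rw [map_mul, ha, hb]
      inv_mem' := fun {a} ha => by simp only [Set.mem_setOf_eq] at *; rw [map_inv, ha] }
  have hF : ∀ f ∈ F, t f ∈ F := fun f hf => by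
    change θ (t f) = t f
    have h1 := hA.tth f
    rw [show θ f = f from hf] at h1
    conv_lhs => rw [h1]
    exact hA.th3 _
  let φ : F →* F := (t.toMonoidHom.comp F.subtype).codRestrict F fun f => hF f f.2
  have hfpf : MonoidHom.FixedPointFree φ := fun f hf =>
    Subtype.ext (hA.fixH f f.2 (congrArg Subtype.val hf))
  have h2 : Function.Involutive φ := fun f => Subtype.ext (hA.t2 f)
  exact congrArg Subtype.val (congrFun (hfpf.coe_eq_inv_of_involutive h2) ⟨c, hc⟩)

/-- A coset of an invariant subgroup fixed by the rotation has a fixed representative. -/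
theorem exists_fixed (N : Subgroup H) (hN : ∀ n ∈ N, θ n ∈ N) {u : H} (hu : u⁻¹ * θ u ∈ N) :
    ∃ c : H, u⁻¹ * c ∈ N ∧ θ c = c := by
  have hcard : Nat.card (Subgroup.zpowers θ) ∣ 3 := by
    rw [Nat.card_zpowers]
    refine orderOf_dvd_of_pow_eq_one (MulEquiv.ext fun h => ?_)
    simpa [pow_succ, MulAut.mul_apply] using hA.th3 h
  haveI : Finite (MulAut H) :=
    Finite.of_injective (fun φ => (φ : H → H)) DFunLike.coe_injective
  have hpow : ∀ (a : Subgroup.zpowers θ), ∃ k : ℕ, (a : MulAut H) = θ ^ k := by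
    rintro ⟨a, ha⟩
    rw [← mem_powers_iff_mem_zpowers, Submonoid.mem_powers_iff] at ha
    obtain ⟨k, rfl⟩ := ha
    exact ⟨k, rfl⟩
  have key : ∀ k : ℕ, (∀ n ∈ N, (θ ^ k) n ∈ N) ∧ u⁻¹ * (θ ^ k) u ∈ N := by
    intro k
    induction k with
    | zero => exact ⟨fun n hn => hn, by simp⟩
    | succ k ih =>
      refine ⟨fun n hn => by rw [pow_succ', MulAut.mul_apply]; exact hN _ (ih.1 n hn), ?_⟩
      rw [pow_succ', MulAut.mul_apply]
      have := N.mul_mem hu (hN _ ih.2)
      rwa [map_mul, map_inv, mul_assoc, mul_inv_cancel_left] at this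
  have hc3 : (Nat.card (Subgroup.zpowers θ)).Coprime (Nat.card H) :=
    ((hA.cop.coprime_dvd_right (show 3 ∣ 6 by norm_num)).symm).coprime_dvd_left hcard
  obtain ⟨c, hc, hfix⟩ := Cfsg.Agent.H20.External.exists_fixed_mem_coset
    (Subgroup.zpowers θ).subtype hc3 (Or.inl (Group.isSolvable_of_comm fun a b => by
      obtain ⟨i, hi⟩ := Subgroup.mem_zpowers_iff.1 a.2
      obtain ⟨j, hj⟩ := Subgroup.mem_zpowers_iff.1 b.2
      exact Subtype.ext (by push_cast; rw [← hi, ← hj, ← zpow_add, ← zpow_add, add_comm])))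
    N (fun a n hn => by
      obtain ⟨k, hk⟩ := hpow a
      change (a : MulAut H) n ∈ N
      rw [hk]; exact (key k).1 n hn)
    (k := u) (fun a => by
      obtain ⟨k, hk⟩ := hpow a
      change u⁻¹ * (a : MulAut H) u ∈ N
      rw [hk]; exact (key k).2)
  exact ⟨c, hc, hfix ⟨θ, Subgroup.mem_zpowers θ⟩⟩

/-- An element fixed modulo an invariant subgroup it normalizes lies in that subgroup. -/
theorem mem_of_fixed_mod (N : Subgroup H) (hNθ : ∀ n ∈ N, θ n ∈ N) (hNt : ∀ n ∈ N, t n ∈ N)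
    {u : H} (hu : ∀ n ∈ N, u * n * u⁻¹ ∈ N) (hθ : u⁻¹ * θ u ∈ N) (ht : u⁻¹ * t u ∈ N) : u ∈ N := by
  obtain ⟨c, hc, hcθ⟩ := hA.exists_fixed N hNθ hθ
  refine hA.mem_of_pow_mem N 2 (by norm_num) ?_
  have h1 := hNt _ hc
  rw [map_mul, map_inv, hA.t_eq_inv hcθ] at h1
  -- `u⁻¹ c⁻¹ ∈ N`
  have h2 : u⁻¹ * c⁻¹ ∈ N := by
    have := N.mul_mem ht h1
    rwa [show u⁻¹ * t u * ((t u)⁻¹ * c⁻¹) = u⁻¹ * c⁻¹ by group] at this
  have h3 := hu _ (N.inv_mem h2)
  -- `u (c u) u⁻¹ = u c ∈ N`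
  rw [show u * (u⁻¹ * c⁻¹)⁻¹ * u⁻¹ = u * c by group] at h3
  have h4 := N.mul_mem h3 (N.inv_mem hc)
  rwa [show u * c * (u⁻¹ * c)⁻¹ = u ^ 2 by rw [pow_two]; group] at h4

variable {Z : Subgroup H} (hZθ : ∀ z ∈ Z, θ z ∈ Z) (hZt : ∀ z ∈ Z, t z ∈ Z)

/-- Characters fixed by the whole group are trivial, as is the product over the group. -/
theorem char_prod (hab : IsMulCommutative Z) (l : Z →* Kˣ) (z : Z) :
    let a : Z → Z := fun z => ⟨θ z, hZθ z z.2⟩
    let b : Z → Z := fun z => ⟨t z, hZt z z.2⟩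
    l z * l (a z) * l (a (a z)) * (l (b z) * l (b (a z)) * l (b (a (a z)))) = 1 := by
  intro a b
  have hcomm : ∀ x y : H, x ∈ Z → y ∈ Z → x * y = y * x := fun x y hx hy =>
    congrArg Subtype.val (hab.is_comm.comm ⟨x, hx⟩ ⟨y, hy⟩)
  set u : H := (z : H) * θ z * θ (θ z) with hu
  have huZ : u ∈ Z := Z.mul_mem (Z.mul_mem z.2 (hZθ _ z.2)) (hZθ _ (hZθ _ z.2))
  have huθ : θ u = u := by
    rw [hu, map_mul, map_mul, hA.th3]
    exact hcomm _ _ (Z.mul_mem (hZθ _ z.2) (hZθ _ (hZθ _ z.2))) z.2 |>.trans (mul_assoc _ _ _).symm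
  have h1 : u * t u = 1 := by rw [hA.t_eq_inv huθ, mul_inv_cancel]
  have h2 : z * a z * a (a z) * (b z * b (a z) * b (a (a z))) = 1 := Subtype.ext (by
    simpa [a, b, hu, map_mul] using h1)
  simpa only [map_mul, map_one] using congrArg l h2

variable {l : Z →* Kˣ} {v : V}

/-- The rotation transports eigenvectors. -/
theorem isEig_Theta (hv : IsEig ρ Z l v) :
    IsEig ρ Z (l.comp (((θ * θ).toMonoidHom.comp Z.subtype).codRestrict Z
      fun z => hZθ _ (hZθ _ z.2))) (Θ v) := by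
  intro z
  have h := congrArg Θ (hv ⟨θ (θ z), hZθ _ (hZθ _ z.2)⟩)
  rw [hA.cth, map_smul, hA.th3] at h
  exact h

/-- The involution transports eigenvectors. -/
theorem isEig_T (hv : IsEig ρ Z l v) :
    IsEig ρ Z (l.comp ((t.toMonoidHom.comp Z.subtype).codRestrict Z fun z => hZt _ z.2)) (T v) := by
  intro z
  have h := congrArg T (hv ⟨t z, hZt _ z.2⟩)
  rw [hA.ct, map_smul, hA.t2] at h
  exact h

end IsFpfS3

/-- `l` is fixed by the automorphism `a`. -/
def FixesChar (a : MulAut H) (Z : Subgroup H) (l : Z →* Kˣ) : Prop :=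
  ∀ z : Z, ∀ h : a z ∈ Z, l ⟨a z, h⟩ = l z

namespace IsFpfS3

variable {ρ : H →* Module.End K V} {θ t : MulAut H} {Θ T : Module.End K V}
  (hA : IsFpfS3 ρ θ t Θ T) [Finite H] {Z : Subgroup H}
  (hZθ : ∀ z ∈ Z, θ z ∈ Z) (hZt : ∀ z ∈ Z, t z ∈ Z) {l : Z →* Kˣ} {v : V}
include hA hZθ hZt

/-- A character fixed by both generators is trivial. -/
theorem eq_one_of_fixes (hab : IsMulCommutative Z) (h1 : FixesChar θ Z l) (h2 : FixesChar t Z l) :
    l = 1 := by
  refine MonoidHom.ext fun z => hA.units_eq_one l z 6 dvd_rfl ?_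
  have := hA.char_prod hZθ hZt hab l z
  simp only [h2 ⟨θ z, hZθ z z.2⟩ (hZt _ (hZθ z z.2)),
    h2 ⟨θ (θ z), hZθ _ (hZθ z z.2)⟩ (hZt _ (hZθ _ (hZθ z z.2))), h2 z (hZt _ z.2),
    h1 ⟨θ z, hZθ z z.2⟩ (hZθ _ (hZθ z z.2)), h1 z (hZθ _ z.2)] at this
  rw [← this]; simp only [pow_succ, pow_zero, one_mul]; simp only [mul_assoc]

/-- For a character fixed by the involution the product over the rotation is trivial. -/
theorem rot_prod_eq_one (hab : IsMulCommutative Z) (h2 : FixesChar t Z l) (z : Z) :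
    l z * l ⟨θ z, hZθ z z.2⟩ * l ⟨θ (θ z), hZθ _ (hZθ z z.2)⟩ = 1 := by
  have h := hA.char_prod hZθ hZt hab l z
  simp only [h2 ⟨θ z, hZθ z z.2⟩ (hZt _ (hZθ z z.2)),
    h2 ⟨θ (θ z), hZθ _ (hZθ z z.2)⟩ (hZt _ (hZθ _ (hZθ z z.2))), h2 z (hZt _ z.2)] at h
  rw [← map_mul, ← map_mul] at h ⊢
  exact hA.units_eq_one l _ 2 (by norm_num) (by rw [pow_two]; exact h)

/-- Each eigencharacter is fixed by the rotation or by one of the three involutions. -/
theorem exists_fixes [Fintype Z] (hcard : (Fintype.card Z : K) ≠ 0)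
    (hv : IsEig ρ Z l v) (hv0 : v ≠ 0) :
    FixesChar θ Z l ∨ FixesChar t Z l ∨ FixesChar (θ * t) Z l ∨ FixesChar (θ * (θ * t)) Z l := by
  by_contra hcon
  simp only [not_or] at hcon
  obtain ⟨n1, n2, n3, n4⟩ := hcon
  have hw : ∀ w, Θ (w + Θ w + Θ (Θ w)) = w + Θ w + Θ (Θ w) := fun w => by
    simp only [map_add, hA.Th3]; abel
  set w := v + Θ v + Θ (Θ v) with hwdef
  have hsum : w + T w = 0 := by
    refine hA.fixV _ ?_ ?_
    · rw [map_add, hw v]
      congr 1
      have h1 := hA.TTh (Θ (Θ (w)))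
      rw [hA.Th3] at h1
      have h2 : Θ (Θ w) = w := by rw [hwdef, hw v, hw v]
      rw [h2] at h1
      conv_lhs => rw [h1]
      rw [hA.Th3]
    · rw [map_add, hA.T2, add_comm]
  have e1 := hA.isEig_Theta hZθ hv
  have e2 := hA.isEig_Theta hZθ e1
  have e3 := hA.isEig_T hZt hv
  have e4 := hA.isEig_T hZt e1
  have e5 := hA.isEig_T hZt e2
  refine hv0 (eq_zero_of_sum_eq_zero ρ Z hcard (Finset.univ : Finset (Fin 6))
    ![l, _, _, _, _, _] ![v, Θ v, Θ (Θ v), T v, T (Θ v), T (Θ (Θ v))]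
    (fun i _ => by fin_cases i; exacts [hv, e1, e2, e3, e4, e5]) ?_ (i := 0) (Finset.mem_univ _) ?_)
  · rw [hwdef, map_add, map_add] at hsum
    rw [← hsum]
    simp only [Fin.sum_univ_six]
    abel_nf
  · intro j _ hj he
    fin_cases j
    · exact hj rfl
    · refine n1 fun z h => ?_
      have := DFunLike.congr_fun he ⟨θ z, h⟩
      simpa [hA.th3] using this.symm
    · refine n1 fun z h => ?_
      have := DFunLike.congr_fun he z
      simpa [hA.th3] using this
    · exact n2 fun z h => DFunLike.congr_fun he z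
    · refine n4 fun z h => ?_
      have := DFunLike.congr_fun he z
      simpa [MulAut.mul_apply] using this
    · refine n3 fun z h => ?_
      have := DFunLike.congr_fun he z
      simpa [MulAut.mul_apply, hA.th3, hA.tth] using this

/-- The rotation sums to zero on the eigenspace of a character it fixes. -/
theorem sum_eq_zero_of_theta [Fintype Z] (hcard : (Fintype.card Z : K) ≠ 0)
    (h1 : FixesChar θ Z l) (h2 : ¬ FixesChar t Z l) (hv : IsEig ρ Z l v) :
    v + Θ v + Θ (Θ v) = 0 := by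
  set w := v + Θ v + Θ (Θ v) with hwdef
  have hθw : Θ w = w := by simp only [hwdef, map_add, hA.Th3]; abel
  have hw : IsEig ρ Z l w := by
    intro z
    have e1 := hA.isEig_Theta hZθ hv z
    have e2 := hA.isEig_Theta hZθ (hA.isEig_Theta hZθ hv) z
    simp only [hwdef, map_add, smul_add, hv z, e1, e2]
    simp [MulAut.mul_apply, hA.th3, h1 ⟨θ z, hZθ z z.2⟩ (hZθ _ (hZθ z z.2)), h1 z (hZθ _ z.2)]
  have hsum : w + T w = 0 := by
    refine hA.fixV _ ?_ (by rw [map_add, hA.T2, add_comm])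
    have h1 := hA.TTh w
    rw [hθw] at h1
    rw [map_add, hθw]
    congr 1
    conv_lhs => rw [h1]
    rw [hA.Th3]
  refine eq_zero_of_sum_eq_zero ρ Z hcard (Finset.univ : Finset (Fin 2))
    ![l, _] ![w, T w] (fun i _ => by fin_cases i; exacts [hw, hA.isEig_T hZt hw])
    (by simpa [Fin.sum_univ_two] using hsum) (i := 0) (Finset.mem_univ _) fun j _ hj he => ?_
  fin_cases j
  · exact hj rfl
  · exact h2 fun z h => DFunLike.congr_fun he z

/-- The involution is `-1` on the eigenspace of a character it fixes. -/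
theorem eq_neg_of_t [Fintype Z] (hcard : (Fintype.card Z : K) ≠ 0)
    (h1 : ¬ FixesChar θ Z l) (h2 : FixesChar t Z l) (hv : IsEig ρ Z l v) : T v = -v := by
  rw [eq_neg_iff_add_eq_zero, add_comm]
  set w := v + T v with hwdef
  have htw : T w = w := by rw [hwdef, map_add, hA.T2, add_comm]
  have hw : IsEig ρ Z l w := by
    intro z
    simp only [hwdef, map_add, smul_add, hv z, hA.isEig_T hZt hv z]
    simp [h2 z (hZt _ z.2)]
  have hsum : w + Θ w + Θ (Θ w) = 0 := by
    refine hA.fixV _ (by simp only [map_add, hA.Th3]; abel) ?_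
    simp only [map_add, hA.TTh, htw, hA.Th3]
    abel
  have e1 := hA.isEig_Theta hZθ hw
  refine eq_zero_of_sum_eq_zero ρ Z hcard (Finset.univ : Finset (Fin 3))
    ![l, _, _] ![w, Θ w, Θ (Θ w)]
    (fun i _ => by fin_cases i; exacts [hw, e1, hA.isEig_Theta hZθ e1])
    (by simpa [Fin.sum_univ_three] using hsum) (i := 0) (Finset.mem_univ _) fun j _ hj he => ?_
  fin_cases j
  · exact hj rfl
  · refine h1 fun z h => ?_
    have := DFunLike.congr_fun he ⟨θ z, h⟩
    simpa [hA.th3] using this.symm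
  · refine h1 fun z h => ?_
    have := DFunLike.congr_fun he z
    simpa [hA.th3] using this

end IsFpfS3

end Cfsg.Agent.H90
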