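import Cfsg.Agent.H90.FpfS3Abelian

set_option autoImplicit false
open scoped commutatorElement

namespace Cfsg.Agent.H90

namespace IsFpfS3

variable {H K V : Type*} [Group H] [Field K] [AddCommGroup V] [Module K V]
  {ρ : H →* Module.End K V} {θ t : MulAut H} {Θ T : Module.End K V}
  (hA : IsFpfS3 ρ θ t Θ T) [Finite H]
include hA

/-- An invariant subgroup of a group with commutative invariant pieces. -/
theorem sylow_isMulCommutative [IsAlgClosed K] {r : ℕ} [Fact r.Prime] [CharP K r]
    (hD : ∀ B : Subgroup H, IsPGroup r B → B ⊓ commutator H = ⊥) {l : ℕ} [Fact l.Prime]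
    (B : Sylow l H) (hBθ : ∀ b ∈ (B : Subgroup H), θ b ∈ (B : Subgroup H))
    (hBt : ∀ b ∈ (B : Subgroup H), t b ∈ (B : Subgroup H)) :
    ∀ a ∈ (B : Subgroup H), ∀ b ∈ (B : Subgroup H), a * b = b * a := by
  intro a ha b hb
  by_cases hlr : l = r
  · subst hlr
    have h : a * b * a⁻¹ * b⁻¹ ∈ (B : Subgroup H) ⊓ commutator H :=
      ⟨Subgroup.mul_mem _ (Subgroup.mul_mem _ (Subgroup.mul_mem _ ha hb) (Subgroup.inv_mem _ ha))
        (Subgroup.inv_mem _ hb),
        Subgroup.commutator_mem_commutator (Subgroup.mem_top a) (Subgroup.mem_top b)⟩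
    rw [hD _ B.isPGroup', Subgroup.mem_bot, mul_inv_eq_one, mul_inv_eq_iff_eq_mul] at h
    exact h
  · have hcard : (Nat.card (B : Subgroup H) : K) ≠ 0 := by
      obtain ⟨n, hn⟩ := B.isPGroup'.exists_card_eq
      rw [Ne, CharP.cast_eq_zero_iff K r, hn]
      exact fun h => hlr ((Nat.prime_dvd_prime_iff_eq Fact.out Fact.out).1
        ((Fact.out : r.Prime).dvd_of_dvd_pow h)).symm
    haveI := B.isPGroup'.isNilpotent
    have hc := hA.isMulCommutative_of_isNilpotent hBθ hBt hcard
    exact congrArg Subtype.val (hc.is_comm.comm ⟨a, ha⟩ ⟨b, hb⟩)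

/-- A group with nilpotent derived group acting faithfully on a module compatibly with fixed-point-free
actions is abelian, unless it has a nontrivial normal invariant subgroup of characteristic order. -/
theorem commute_of_fpfS3 [IsAlgClosed K] {r : ℕ} [Fact r.Prime] [CharP K r]
    {A : Type*} [Group A] [Finite A] (φ : A →* MulAut H)
    (hcopA : (Nat.card A).Coprime (Nat.card H)) (σ τ : A) (hσ : φ σ = θ) (hτ : φ τ = t)
    (hnil : Group.IsNilpotent (commutator H))
    (hN : ∀ N : Subgroup H, N.Normal → IsPGroup r N → (∀ n ∈ N, θ n ∈ N) → (∀ n ∈ N, t n ∈ N) →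
      N = ⊥) (a b : H) : a * b = b * a := by
  haveI := hnil
  have hchar : ∀ (N : Subgroup H) (f : MulAut H), N.Characteristic → ∀ n ∈ N, f n ∈ N :=
    fun N f h n hn => by
      have := Subgroup.characteristic_iff_map_eq.1 h f
      rw [← this]; exact ⟨n, hn, rfl⟩
  have hcast : ∀ N : Subgroup H, ¬ r ∣ Nat.card N → (Nat.card N : K) ≠ 0 := fun N h e =>
    h ((CharP.cast_eq_zero_iff K r _).1 e)
  have hnr : ∀ (D : Subgroup H), D.Characteristic → Group.IsNilpotent D → ¬ r ∣ Nat.card D := by
    intro D hDchar hDnil hdvd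
    obtain ⟨P⟩ : Nonempty (Sylow r D) := inferInstance
    haveI := hDchar
    haveI : (P : Subgroup D).Characteristic := Sylow.characteristic_of_normal P
      (Sylow.normal_of_normalizerCondition normalizerCondition_of_isNilpotent P)
    have hmap : ((P : Subgroup D).map D.subtype).Characteristic :=
      Subgroup.characteristic_iff_map_eq.2 fun f => by
        have hD' := Subgroup.characteristic_iff_map_eq.1 hDchar f
        let g : MulAut D := (f.subgroupMap D).trans (MulEquiv.subgroupCongr hD')
        have := Subgroup.characteristic_iff_map_eq.1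
          (inferInstance : (P : Subgroup D).Characteristic) g
        conv_rhs => rw [← this]
        rw [Subgroup.map_map, Subgroup.map_map]
        rfl
    haveI := hmap
    have h0 := hN _ inferInstance (P.isPGroup'.map _) (hchar _ θ hmap) (hchar _ t hmap)
    rw [Subgroup.map_eq_bot_iff, D.ker_subtype, le_bot_iff] at h0
    exact Sylow.ne_bot_of_dvd_card P hdvd h0
  set D := commutator H
  have hDchar : D.Characteristic := inferInstance
  have hDn := hnr D hDchar hnil
  haveI : IsMulCommutative D :=
    hA.isMulCommutative_of_isNilpotent (hchar D θ hDchar) (hchar D t hDchar) (hcast D hDn)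
  let _ : Fintype D := Fintype.ofFinite _
  have hDr : ∀ B : Subgroup H, IsPGroup r B → B ⊓ D = ⊥ := fun B hB => by
    obtain ⟨n, hn⟩ := hB.exists_card_eq
    exact Subgroup.inf_eq_bot_of_coprime (hn ▸
      (((Fact.out : r.Prime).coprime_iff_not_dvd).2 hDn).pow_left n)
  have hcomm : ∀ x y : H ⧸ D, x * y = y * x := fun x y => by
    induction x using QuotientGroup.induction_on with
    | H x => induction y using QuotientGroup.induction_on with
      | H y =>
        rw [← QuotientGroup.mk_mul, ← QuotientGroup.mk_mul, QuotientGroup.eq]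
        rw [show (x * y)⁻¹ * (y * x) = ⁅y⁻¹, x⁻¹⁆ by simp [commutatorElement_def, mul_assoc]]
        exact Subgroup.commutator_mem_commutator (Subgroup.mem_top _) (Subgroup.mem_top _)
  haveI : Group.IsSolvable (H ⧸ D) := Group.isSolvable_of_comm hcomm
  have hsolv : Group.IsSolvable H := by
    refine Group.isSolvable_of_ker_le_range D.subtype (QuotientGroup.mk' D) ?_
    rw [Subgroup.range_subtype, QuotientGroup.ker_mk']
  -- the derived group is central
  have hcen : Subgroup.centralizer (D : Set H) = ⊤ := by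
    refine Subgroup.eq_top_of_card_eq _ (Nat.dvd_antisymm (Subgroup.card_subgroup_dvd_card _) ?_)
    refine (Nat.factorization_prime_le_iff_dvd Nat.card_pos.ne' Nat.card_pos.ne').1 fun l hl => ?_
    haveI := Fact.mk hl
    obtain ⟨B, hB⟩ := Cfsg.Agent.H20.External.exists_invariant_sylow φ hcopA (Or.inr hsolv) l
    have hBθ : ∀ x ∈ (B : Subgroup H), θ x ∈ (B : Subgroup H) := fun x hx => hσ ▸ hB σ x hx
    have hBt : ∀ x ∈ (B : Subgroup H), t x ∈ (B : Subgroup H) := fun x hx => hτ ▸ hB τ x hx
    have hBab := hA.sylow_isMulCommutative hDr B hBθ hBt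
    have hle : (B : Subgroup H) ≤ Subgroup.centralizer (D : Set H) := fun x hx =>
      Subgroup.mem_centralizer_iff.2 fun d hd => (hA.commute_of_normalize
        (fun c _ s hs => (inferInstance : D.Normal).conj_mem s hs c)
        (fun c hc e he s _ => by rw [hBab c hc e he, mul_inv_cancel_right, mul_inv_cancel,
          one_mul, mul_one])
        (hchar D θ hDchar) (hchar D t hDchar) hBθ hBt (hcast D hDn) hx hd).symm
    rw [← (Nat.Prime.pow_dvd_iff_le_factorization hl Nat.card_pos.ne')]
    rw [← B.card_eq_multiplicity]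
    exact Subgroup.card_dvd_of_le hle
  have hHnil : Group.IsNilpotent H := by
    haveI : Group.IsNilpotent (H ⧸ D) :=
      @CommGroup.isNilpotent (H ⧸ D) { (inferInstance : Group (H ⧸ D)) with mul_comm := hcomm }
    refine Subgroup.isNilpotent_of_ker_le_center (QuotientGroup.mk' D) ?_
    rw [QuotientGroup.ker_mk']
    intro d hd
    exact Subgroup.mem_center_iff.2 fun g =>
      (Subgroup.mem_centralizer_iff.1 (hcen ▸ Subgroup.mem_top g : g ∈ Subgroup.centralizer (D : Set H))
        d hd).symm
  have hHn := hnr ⊤ inferInstance inferInstance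
  haveI := hA.isMulCommutative_of_isNilpotent (R := (⊤ : Subgroup H)) (fun x _ => Subgroup.mem_top _)
    (fun x _ => Subgroup.mem_top _) (hcast _ hHn)
  exact congrArg Subtype.val
    (IsMulCommutative.is_comm.comm (⟨a, Subgroup.mem_top a⟩ : (⊤ : Subgroup H)) ⟨b, Subgroup.mem_top b⟩)

end IsFpfS3

end Cfsg.Agent.H90
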