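import Cfsg.Agent.H90.FpfS3Theta

set_option autoImplicit false

namespace Cfsg.Agent.H90

/-- Congruence modulo a subgroup containing all commutators is compatible with products. -/
theorem mul_congr_mod {H : Type*} [Group H] {S N : Subgroup H} (hNS : N ≤ S)
    (hc : ∀ a ∈ S, ∀ b ∈ S, a * b * a⁻¹ * b⁻¹ ∈ N) {a a' b b' : H} (hb : b ∈ S)
    (ha : a⁻¹ * a' ∈ N) (hb' : b⁻¹ * b' ∈ N) : (a * b)⁻¹ * (a' * b') ∈ N := by
  rw [show (a * b)⁻¹ * (a' * b') =
    b⁻¹ * (a⁻¹ * a') * b⁻¹⁻¹ * (a⁻¹ * a')⁻¹ * (a⁻¹ * a') * (b⁻¹ * b') by group]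
  exact N.mul_mem (N.mul_mem (hc _ (S.inv_mem hb) _ (hNS ha)) ha) hb'

/-- Reordering modulo a subgroup containing all commutators. -/
theorem swap_congr_mod {H : Type*} [Group H] {S N : Subgroup H}
    (hc : ∀ a ∈ S, ∀ b ∈ S, a * b * a⁻¹ * b⁻¹ ∈ N) {a b : H} (ha : a ∈ S) (hb : b ∈ S) :
    (a * b)⁻¹ * (b * a) ∈ N := by
  rw [show (a * b)⁻¹ * (b * a) = b⁻¹ * a⁻¹ * b⁻¹⁻¹ * a⁻¹⁻¹ by group]
  exact hc _ (S.inv_mem hb) _ (S.inv_mem ha)

section Centre

variable {H : Type*} [Group H] (R : Subgroup H)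

/-- The centre of a subgroup, inside the ambient group. -/
def zSub : Subgroup H := R ⊓ Subgroup.centralizer (R : Set H)

theorem commute_of_mem_zSub {z y : H} (hz : z ∈ zSub R) (hy : y ∈ R) : y * z = z * y :=
  Subgroup.mem_centralizer_iff.1 hz.2 y hy

instance : IsMulCommutative (zSub R) :=
  ⟨⟨fun a b => Subtype.ext (commute_of_mem_zSub R b.2 a.2.1)⟩⟩

theorem comm_congr {x x' y : H} (h : x⁻¹ * x' ∈ zSub R) (hy : y ∈ R) :
    x' * y * x'⁻¹ * y⁻¹ = x * y * x⁻¹ * y⁻¹ := by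
  calc x' * y * x'⁻¹ * y⁻¹
      = x * ((x⁻¹ * x') * y * (x⁻¹ * x')⁻¹) * x⁻¹ * y⁻¹ := by group
    _ = x * y * x⁻¹ * y⁻¹ := by
      rw [← commute_of_mem_zSub R h hy, mul_inv_cancel_right]

theorem conj_zSub {z y : H} (hz : z ∈ zSub R) (hy : y ∈ R) : y * z * y⁻¹ = z := by
  rw [commute_of_mem_zSub R hz hy, mul_inv_cancel_right]

/-- The second centre of a subgroup, inside the ambient group. -/
def wSub : Subgroup H where
  carrier := {x | x ∈ R ∧ ∀ y ∈ R, x * y * x⁻¹ * y⁻¹ ∈ zSub R}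
  one_mem' := ⟨R.one_mem, fun y _ => by simp [(zSub R).one_mem]⟩
  mul_mem' := fun {a b} ha hb => ⟨R.mul_mem ha.1 hb.1, fun y hy => by
    rw [show a * b * y * (a * b)⁻¹ * y⁻¹ =
      a * (b * y * b⁻¹ * y⁻¹) * a⁻¹ * (a * y * a⁻¹ * y⁻¹) by group,
      conj_zSub R (hb.2 y hy) ha.1]
    exact (zSub R).mul_mem (hb.2 y hy) (ha.2 y hy)⟩
  inv_mem' := fun {a} ha => ⟨R.inv_mem ha.1, fun y hy => by
    have h := (zSub R).inv_mem (ha.2 y hy)
    rw [← conj_zSub R h (R.inv_mem ha.1)] at h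
    rwa [show a⁻¹ * (a * y * a⁻¹ * y⁻¹)⁻¹ * a⁻¹⁻¹ = a⁻¹ * y * a⁻¹⁻¹ * y⁻¹ by group] at h⟩

theorem zSub_le_wSub : zSub R ≤ wSub R := fun z hz => ⟨hz.1, fun y hy => by
  rw [← commute_of_mem_zSub R hz hy, mul_inv_cancel_right, mul_inv_cancel]
  exact one_mem _⟩

/-- Commutation with an element of the second centre. -/
def commHom (x : wSub R) : R →* zSub R :=
  MonoidHom.mk' (fun y => ⟨x * y * (x : H)⁻¹ * (y : H)⁻¹, x.2.2 y y.2⟩) fun a b => Subtype.ext (by
    change (x : H) * (a * b) * (x : H)⁻¹ * ((a : H) * b)⁻¹ =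
      (x * a * (x : H)⁻¹ * (a : H)⁻¹) * (x * b * (x : H)⁻¹ * (b : H)⁻¹)
    rw [show (x : H) * (a * b) * (x : H)⁻¹ * ((a : H) * b)⁻¹ = (x * a * (x : H)⁻¹ * (a : H)⁻¹) *
      ((a : H) * (x * b * (x : H)⁻¹ * (b : H)⁻¹) * (a : H)⁻¹) by group,
      conj_zSub R (x.2.2 b b.2) a.2])

theorem commHom_apply (x : wSub R) (y : R) :
    (commHom R x y : H) = x * y * (x : H)⁻¹ * (y : H)⁻¹ := rfl

theorem commHom_mul (x x' : wSub R) (y : R) :
    commHom R (x * x') y = commHom R x y * commHom R x' y := by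
  rw [mul_comm' (commHom R x y)]
  refine Subtype.ext ?_
  simp only [Subgroup.coe_mul, commHom_apply]
  rw [show (x : H) * x' * y * ((x : H) * x')⁻¹ * (y : H)⁻¹ =
    x * (x' * y * (x' : H)⁻¹ * (y : H)⁻¹) * (x : H)⁻¹ * (x * y * (x : H)⁻¹ * (y : H)⁻¹) by group,
    conj_zSub R (x'.2.2 y y.2) x.2.1]

/-- The centralizer of the second centre in the subgroup. -/
def mSub : Subgroup H := R ⊓ Subgroup.centralizer (wSub R : Set H)

theorem comm_mem_mSub (a : H) (ha : a ∈ R) (b : H) (hb : b ∈ R) :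
    a * b * a⁻¹ * b⁻¹ ∈ mSub R := by
  have hR : a * b * a⁻¹ * b⁻¹ ∈ R :=
    R.mul_mem (R.mul_mem (R.mul_mem ha hb) (R.inv_mem ha)) (R.inv_mem hb)
  refine ⟨hR, Subgroup.mem_centralizer_iff.2 fun w hw => ?_⟩
  have h : commHom R ⟨w, hw⟩
      (⟨a, ha⟩ * ⟨b, hb⟩ * (⟨a, ha⟩ : R)⁻¹ * (⟨b, hb⟩ : R)⁻¹) = 1 := by
    rw [map_mul, map_mul, map_mul, map_inv, map_inv, mul_comm' (commHom R _ ⟨a, ha⟩),
      mul_inv_cancel_right, mul_inv_cancel]
  have h' : w * (a * b * a⁻¹ * b⁻¹) * w⁻¹ * (a * b * a⁻¹ * b⁻¹)⁻¹ = 1 := congrArg Subtype.val h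
  rwa [mul_inv_eq_one, mul_inv_eq_iff_eq_mul] at h'

theorem commHom_congr {x : wSub R} {y y' : R} (h : (y : H)⁻¹ * y' ∈ mSub R) :
    commHom R x y' = commHom R x y := by
  have h1 : commHom R x (y⁻¹ * y') = 1 := Subtype.ext (by
    rw [commHom_apply, show ((y⁻¹ * y' : R) : H) = (y : H)⁻¹ * y' from rfl,
      Subgroup.mem_centralizer_iff.1 h.2 x x.2, mul_inv_cancel_right, mul_inv_cancel]
    rfl)
  rwa [map_mul, map_inv, inv_mul_eq_one, eq_comm] at h1

end Centre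

section Invariant

variable {H : Type*} [Group H] (R : Subgroup H) (a : MulAut H)
  (hR : ∀ r ∈ R, a r ∈ R) (hR' : ∀ r ∈ R, a.symm r ∈ R)
include hR hR'

theorem map_mem_zSub : ∀ z ∈ zSub R, a z ∈ zSub R := fun z hz =>
  ⟨hR z hz.1, Subgroup.mem_centralizer_iff.2 fun y hy => by
    have h := congrArg a (commute_of_mem_zSub R hz (hR' y hy))
    simpa only [map_mul, MulEquiv.apply_symm_apply] using h⟩

theorem map_mem_wSub : ∀ x ∈ wSub R, a x ∈ wSub R := fun x hx =>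
  ⟨hR x hx.1, fun y hy => by
    have h := map_mem_zSub R a hR hR' _ (hx.2 _ (hR' y hy))
    simpa only [map_mul, map_inv, MulEquiv.apply_symm_apply] using h⟩

theorem map_mem_mSub (hW : ∀ x ∈ wSub R, a.symm x ∈ wSub R) : ∀ y ∈ mSub R, a y ∈ mSub R :=
  fun y hy => ⟨hR y hy.1, Subgroup.mem_centralizer_iff.2 fun w hw => by
    have h := congrArg a (Subgroup.mem_centralizer_iff.1 hy.2 _ (hW w hw))
    simpa only [map_mul, MulEquiv.apply_symm_apply] using h⟩

end Invariant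

namespace IsFpfS3

variable {H K V : Type*} [Group H] [Field K] [AddCommGroup V] [Module K V]
  {ρ : H →* Module.End K V} {θ t : MulAut H} {Θ T : Module.End K V}
  (hA : IsFpfS3 ρ θ t Θ T) [Finite H]
include hA

theorem symm_theta (y : H) : θ.symm y = θ (θ y) := by
  rw [MulEquiv.symm_apply_eq, hA.th3]

theorem symm_t (y : H) : t.symm y = t y := by
  rw [MulEquiv.symm_apply_eq, hA.t2]

theorem th2_t (y : H) : θ (θ (t y)) = t (θ y) := (hA.tth y).symm

theorem th_t (y : H) : θ (t y) = t (θ (θ y)) := by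
  rw [hA.tth, hA.tth, hA.th3]

section

variable {R : Subgroup H} (hRθ : ∀ r ∈ R, θ r ∈ R) (hRt : ∀ r ∈ R, t r ∈ R)
include hRθ hRt

theorem zSub_inv : (∀ z ∈ zSub R, θ z ∈ zSub R) ∧ (∀ z ∈ zSub R, t z ∈ zSub R) :=
  ⟨map_mem_zSub R θ hRθ (fun r hr => by rw [hA.symm_theta]; exact hRθ _ (hRθ r hr)),
    map_mem_zSub R t hRt (fun r hr => by rw [hA.symm_t]; exact hRt r hr)⟩

theorem wSub_inv : (∀ z ∈ wSub R, θ z ∈ wSub R) ∧ (∀ z ∈ wSub R, t z ∈ wSub R) :=
  ⟨map_mem_wSub R θ hRθ (fun r hr => by rw [hA.symm_theta]; exact hRθ _ (hRθ r hr)),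
    map_mem_wSub R t hRt (fun r hr => by rw [hA.symm_t]; exact hRt r hr)⟩

theorem mSub_inv : (∀ z ∈ mSub R, θ z ∈ mSub R) ∧ (∀ z ∈ mSub R, t z ∈ mSub R) :=
  ⟨map_mem_mSub R θ hRθ (fun r hr => by rw [hA.symm_theta]; exact hRθ _ (hRθ r hr))
      (fun x hx => by
        rw [hA.symm_theta]
        exact (hA.wSub_inv hRθ hRt).1 _ ((hA.wSub_inv hRθ hRt).1 x hx)),
    map_mem_mSub R t hRt (fun r hr => by rw [hA.symm_t]; exact hRt r hr)
      (fun x hx => by rw [hA.symm_t]; exact (hA.wSub_inv hRθ hRt).2 x hx)⟩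

end

/-- In an abelian section the orbit product of an element fixed by the involution is trivial. -/
theorem orbit_mem (S N : Subgroup H) (hSθ : ∀ s ∈ S, θ s ∈ S) (hNθ : ∀ n ∈ N, θ n ∈ N)
    (hNt : ∀ n ∈ N, t n ∈ N) (hNS : N ≤ S) (hc : ∀ a ∈ S, ∀ b ∈ S, a * b * a⁻¹ * b⁻¹ ∈ N)
    {y : H} (hy : y ∈ S) (hyt : y⁻¹ * t y ∈ N) : y * θ y * θ (θ y) ∈ N := by
  have h1 := hSθ y hy
  have h2 := hSθ _ h1
  refine hA.mem_of_fixed_mod N hNθ hNt (fun n hn => ?_) ?_ ?_
  · have := N.mul_mem (hc _ (S.mul_mem (S.mul_mem hy h1) h2) _ (hNS hn)) hn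
    rwa [inv_mul_cancel_right] at this
  · rw [map_mul, map_mul, hA.th3, mul_assoc y]
    exact swap_congr_mod hc hy (S.mul_mem h1 h2)
  · rw [map_mul, map_mul, hA.tth y, hA.tth (θ y), hA.tth y, hA.th3]
    have e1 : (θ y)⁻¹ * θ (t y) ∈ N := by
      rw [← map_inv, ← map_mul]; exact hNθ _ hyt
    have e2 : (θ (θ y))⁻¹ * θ (θ (t y)) ∈ N := by
      rw [← map_inv, ← map_inv, ← map_mul, ← map_mul]; exact hNθ _ (hNθ _ hyt)
    have e3 := mul_congr_mod hNS hc h1 (mul_congr_mod hNS hc h2 hyt e2) e1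
    have e4 := mul_congr_mod hNS hc (S.mul_mem h1 h2)
      (show y⁻¹ * y ∈ N by rw [inv_mul_cancel]; exact N.one_mem) (swap_congr_mod hc h1 h2)
    rw [mul_assoc y]
    have := N.mul_mem e4 (show (y * (θ (θ y) * θ y))⁻¹ * (t y * θ (θ (t y)) * θ (t y)) ∈ N by
      rw [← mul_assoc y]; exact e3)
    rw [mul_assoc, mul_inv_cancel_left] at this
    exact this

variable {R : Subgroup H} (hRθ : ∀ r ∈ R, θ r ∈ R) (hRt : ∀ r ∈ R, t r ∈ R)
include hRθ hRt

/-- Characters fixed by the involution only vanish on commutators with the second centre. -/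
theorem char_comm_of_t [Fintype (zSub R)] (hcard : (Fintype.card (zSub R) : K) ≠ 0)
    {l : zSub R →* Kˣ} (h1 : ¬ FixesChar θ (zSub R) l) (h2 : FixesChar t (zSub R) l)
    {v : V} (hv : IsEig ρ (zSub R) l v) (hv0 : v ≠ 0) (x : wSub R) (y : R) :
    l (commHom R x y) = 1 := by
  obtain ⟨hZθ, hZt⟩ := hA.zSub_inv hRθ hRt
  obtain ⟨hWθ, hWt⟩ := hA.wSub_inv hRθ hRt
  obtain ⟨hMθ, hMt⟩ := hA.mSub_inv hRθ hRt
  let wθ : wSub R → wSub R := fun x => ⟨θ x, hWθ x x.2⟩
  let wt : wSub R → wSub R := fun x => ⟨t x, hWt x x.2⟩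
  let rθ : R → R := fun y => ⟨θ y, hRθ y y.2⟩
  let rt : R → R := fun y => ⟨t y, hRt y y.2⟩
  let f : wSub R → R → Kˣ := fun x y => l (commHom R x y)
  have f1 : ∀ x x' y, f (x * x') y = f x y * f x' y := fun x x' y => by
    simp only [f, commHom_mul, map_mul]
  have f2 : ∀ x y y', f x (y * y') = f x y * f x y' := fun x y y' => by
    simp only [f, map_mul]
  have fx : ∀ (x x' : wSub R) y, (x : H)⁻¹ * x' ∈ zSub R → f x' y = f x y := fun x x' y h =>
    congrArg l (Subtype.ext (comm_congr R h y.2))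
  have fy : ∀ x (y y' : R), (y : H)⁻¹ * y' ∈ mSub R → f x y' = f x y := fun x y y' h =>
    congrArg l (commHom_congr R h)
  -- the involution and the identity agree on the eigenspace
  have hRC : R ≤ Subgroup.centralizer (zSub R : Set H) := fun r hr =>
    Subgroup.mem_centralizer_iff.2 fun z hz => (commute_of_mem_zSub R hz hr).symm
  set r := eigRep ρ (zSub R) l
  let ι : R →* Subgroup.centralizer (zSub R : Set H) := Subgroup.inclusion hRC
  have hagree : ∀ y : R, r (ι (rt y)) = r (ι y) := fun y => LinearMap.ext fun u => Subtype.ext (by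
    have e := hA.ct y u
    rw [hA.eq_neg_of_t hZθ hZt hcard h1 h2 u.2, hA.eq_neg_of_t hZθ hZt hcard h1 h2
      (show IsEig ρ (zSub R) l (ρ y u) from (r (ι y) u).2), map_neg, neg_inj] at e
    exact e.symm)
  haveI : Nontrivial (eigSub ρ (zSub R) l) :=
    nontrivial_of_ne ⟨v, hv⟩ 0 fun e => hv0 (congrArg Subtype.val e)
  let ιx : wSub R → R := fun x => ⟨x, x.2.1⟩
  have hlz : ∀ z : zSub R, r (ι ⟨z, z.2.1⟩) = (l z : K) • 1 := fun z =>
    LinearMap.ext fun u => Subtype.ext (u.2 z)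
  have hinj : ∀ z z' : zSub R, r (ι ⟨z, z.2.1⟩) = r (ι ⟨z', z'.2.1⟩) → l z = l z' := by
    intro z z' e
    rw [hlz, hlz] at e
    obtain ⟨u, hu⟩ := exists_ne (0 : eigSub ρ (zSub R) l)
    exact Units.ext (smul_left_injective K hu (LinearMap.congr_fun e u))
  have hcom : ∀ x y, (⟨commHom R x y, (commHom R x y).2.1⟩ : R) =
      ιx x * y * (ιx x)⁻¹ * y⁻¹ := fun x y => Subtype.ext rfl
  have hrtinv : ∀ y : R, rt y⁻¹ = (rt y)⁻¹ := fun y => Subtype.ext (map_inv t (y : H))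
  have ft1 : ∀ x y, f (wt x) y = f x y := fun x y => hinj _ _ (by
    rw [hcom, hcom, show ιx (wt x) = rt (ιx x) from rfl, map_mul ι, map_mul ι, map_mul ι,
      map_mul ι, map_mul ι, map_mul ι, map_mul r, map_mul r, map_mul r, map_mul r, map_mul r,
      map_mul r, hagree, ← hrtinv, hagree])
  have ft2 : ∀ x y, f x (rt y) = f x y := fun x y => hinj _ _ (by
    rw [hcom, hcom, map_mul ι, map_mul ι, map_mul ι, map_mul ι, map_mul ι, map_mul ι, map_mul r,
      map_mul r, map_mul r, map_mul r, map_mul r, map_mul r, hagree, ← hrtinv, hagree])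
  have fprod : ∀ x y, f x y * f (wθ x) (rθ y) * f (wθ (wθ x)) (rθ (rθ y)) = 1 := fun x y => by
    have := hA.rot_prod_eq_one hZθ hZt inferInstance h2 (commHom R x y)
    rw [show (⟨θ (commHom R x y : H), hZθ _ (commHom R x y).2⟩ : zSub R) =
        commHom R (wθ x) (rθ y) from Subtype.ext (by simp [wθ, rθ, commHom_apply]),
      show (⟨θ (θ (commHom R x y : H)), hZθ _ (hZθ _ (commHom R x y).2)⟩ : zSub R) =
        commHom R (wθ (wθ x)) (rθ (rθ y)) from Subtype.ext (by simp [wθ, rθ, commHom_apply])] at this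
    exact this
  -- symmetrise
  set x' := x * wt x with hx'
  set y' := y * rt y with hy'
  have hcW : ∀ a ∈ wSub R, ∀ b ∈ wSub R, a * b * a⁻¹ * b⁻¹ ∈ zSub R := fun a ha b hb =>
    ha.2 b hb.1
  have ex : (x' : H)⁻¹ * t x' ∈ zSub R := by
    simp only [hx', wt, Subgroup.coe_mul, map_mul, hA.t2]
    exact swap_congr_mod hcW x.2 (hWt x x.2)
  have ey : (y' : H)⁻¹ * t y' ∈ mSub R := by
    simp only [hy', rt, Subgroup.coe_mul, map_mul, hA.t2]
    exact swap_congr_mod (comm_mem_mSub R) y.2 (hRt y y.2)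
  have d0 : ∀ w, f (wθ (wθ x')) w = f (wθ x') w := fun w => by
    rw [← ft1 (wθ x') w]
    refine (fx _ _ w ?_).symm
    simp only [wθ, wt]
    rw [← hA.th2_t, ← map_inv, ← map_inv, ← map_mul, ← map_mul]
    exact hZθ _ (hZθ _ ex)
  have d1 : ∀ w, f x' w * (f (wθ x') w * f (wθ x') w) = 1 := fun w => by
    have h : (x' : H) * θ x' * θ (θ x') ∈ zSub R :=
      hA.orbit_mem _ _ hWθ hZθ hZt (zSub_le_wSub R) hcW x'.2 ex
    have h' : f (x' * wθ x' * wθ (wθ x')) w = f 1 w :=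
      fx 1 _ w (by simpa [wθ] using h)
    rw [f1, f1, d0, show f 1 w = 1 from congrArg l (Subtype.ext (by simp [commHom_apply]))
      |>.trans (map_one l)] at h'
    rw [← h', mul_assoc]
  have e0 : ∀ a, f a (rθ (rθ y')) = f a (rθ y') := fun a => by
    rw [← ft2 a (rθ y')]
    refine (fy a _ _ ?_).symm
    simp only [rθ, rt]
    rw [← hA.th2_t, ← map_inv, ← map_inv, ← map_mul, ← map_mul]
    exact hMθ _ (hMθ _ ey)
  have d2 : f x' y' = f x' (rθ y') := by
    have h1' := fprod x' y'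
    rw [d0, e0, mul_assoc] at h1'
    exact mul_right_cancel (h1'.trans (d1 (rθ y')).symm)
  have d3 : f x' y' = 1 := by
    have h : (y' : H) * θ y' * θ (θ y') ∈ mSub R :=
      hA.orbit_mem _ _ hRθ hMθ hMt inf_le_left (comm_mem_mSub R) y'.2 ey
    have h' : f x' (y' * rθ y' * rθ (rθ y')) = f x' 1 := fy x' 1 _ (by simpa [rθ] using h)
    rw [f2, f2, e0, ← d2, show f x' 1 = 1 by simp [f]] at h'
    exact hA.units_eq_one l _ 3 (by norm_num) (by rw [pow_three']; exact h')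
  simp only [hx', hy', f1, f2, ft1, ft2] at d3
  have d4 : l (commHom R x y ^ 2) = 1 := hA.units_eq_one l _ 2 (by norm_num) (by
    rw [map_pow, pow_two, pow_two]; exact d3)
  rw [map_pow] at d4
  exact hA.units_eq_one l _ 2 (by norm_num) d4

/-- The same for a character not fixed by the rotation, whichever involution fixes it. -/
theorem char_comm_of_not_theta [Fintype (zSub R)] (hcard : (Fintype.card (zSub R) : K) ≠ 0)
    {l : zSub R →* Kˣ} (h1 : ¬ FixesChar θ (zSub R) l)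
    {v : V} (hv : IsEig ρ (zSub R) l v) (hv0 : v ≠ 0) (x : wSub R) (y : R) :
    l (commHom R x y) = 1 := by
  obtain ⟨hZθ, hZt⟩ := hA.zSub_inv hRθ hRt
  have hrt : ∀ r ∈ R, (θ * t) r ∈ R := fun r hr => hRθ _ (hRt r hr)
  rcases hA.exists_fixes hZθ hZt hcard hv hv0 with h | h | h | h
  · exact absurd h h1
  · exact hA.char_comm_of_t hRθ hRt hcard h1 h hv hv0 x y
  · exact hA.rot.char_comm_of_t hRθ hrt hcard h1 h hv hv0 x y
  · exact hA.rot.rot.char_comm_of_t hRθ (fun r hr => hRθ _ (hrt r hr)) hcard h1 h hv hv0 x y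

/-- An invariant nilpotent subgroup of order invertible in the ground field is abelian. -/
theorem isMulCommutative_of_isNilpotent [IsAlgClosed K] (hcard : (Nat.card R : K) ≠ 0)
    [Group.IsNilpotent R] : IsMulCommutative R := by
  obtain ⟨hZθ, hZt⟩ := hA.zSub_inv hRθ hRt
  obtain ⟨hWθ, hWt⟩ := hA.wSub_inv hRθ hRt
  obtain ⟨hMθ, hMt⟩ := hA.mSub_inv hRθ hRt
  let _ : Fintype (zSub R) := Fintype.ofFinite _
  have hne : ∀ n : ℕ, n ∣ Nat.card R → (n : K) ≠ 0 := by
    rintro n ⟨m, hm⟩ h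
    exact hcard (by rw [hm, Nat.cast_mul, h, zero_mul])
  have hcardZ : (Fintype.card (zSub R) : K) ≠ 0 := by
    rw [← Nat.card_eq_fintype_card]
    exact hne _ (Subgroup.card_dvd_of_le inf_le_left)
  haveI : NeZero (Monoid.exponent (zSub R) : K) :=
    ⟨hne _ ((Group.exponent_dvd_nat_card).trans (Subgroup.card_dvd_of_le inf_le_left))⟩
  have hcW : ∀ a ∈ wSub R, ∀ b ∈ wSub R, a * b * a⁻¹ * b⁻¹ ∈ zSub R := fun a ha b hb =>
    ha.2 b hb.1
  have hkill : ∀ z : zSub R,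
      (∀ (l : zSub R →* Kˣ) (v : V), IsEig ρ (zSub R) l v → v ≠ 0 → l z = 1) → z = 1 := fun z h =>
    Subtype.ext (hA.inj (by
      rw [OneMemClass.coe_one, map_one]
      refine eq_one_of_forall_isEig ρ (zSub R) hcardZ _ fun l v hv => ?_
      rcases eq_or_ne v 0 with rfl | hv0
      · simp
      · rw [hv z, h l v hv hv0, Units.val_one, one_smul]))
  have hRC : R ≤ Subgroup.centralizer (zSub R : Set H) := fun r hr =>
    Subgroup.mem_centralizer_iff.2 fun z hz => (commute_of_mem_zSub R hz hr).symm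
  -- the rotation fixes the second centre modulo the centre
  have step2 : ∀ x : wSub R, (x : H) * θ (x : H)⁻¹ ∈ zSub R := fun x => by
    have hc : (x : H) * θ (x : H)⁻¹ ∈ wSub R :=
      (wSub R).mul_mem x.2 (hWθ _ ((wSub R).inv_mem x.2))
    refine ⟨hc.1, Subgroup.mem_centralizer_iff.2 fun y hy => ?_⟩
    have key : commHom R ⟨_, hc⟩ ⟨y, hy⟩ = 1 := hkill _ fun l v hv hv0 => by
      by_cases h1 : FixesChar θ (zSub R) l
      · by_cases h2 : FixesChar t (zSub R) l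
        · rw [hA.eq_one_of_fixes hZθ hZt inferInstance h1 h2, MonoidHom.one_apply]
        · have hfix : ∀ u, IsEig ρ (zSub R) l u → ρ ((x : H) * θ (x : H)⁻¹) u = u := fun u hu =>
            hA.fix_of_theta hZθ hZt hcardZ h1 h2 (hRC x.2.1) ((hWθ _ hc).2 _ hc.1)
              (hne _ ((Subgroup.orderOf_coe (⟨_, hc.1⟩ : R)).symm ▸ orderOf_dvd_natCard _)) hu
          set c := (x : H) * θ (x : H)⁻¹
          have hmem : ∀ g ∈ R, ∀ u, IsEig ρ (zSub R) l u → IsEig ρ (zSub R) l (ρ g u) :=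
            fun g hg u hu => (eigRep ρ (zSub R) l ⟨g, hRC hg⟩ ⟨u, hu⟩).2
          have hfix' : ∀ u, IsEig ρ (zSub R) l u → ρ c⁻¹ u = u := fun u hu => by
            conv_lhs => rw [← hfix u hu]
            rw [← Module.End.mul_apply, ← map_mul, inv_mul_cancel, map_one, Module.End.one_apply]
          have e := hv (commHom R ⟨c, hc⟩ ⟨y, hy⟩)
          rw [commHom_apply, map_mul, map_mul, map_mul, Module.End.mul_apply,
            Module.End.mul_apply, Module.End.mul_apply, hfix' _ (hmem _ (R.inv_mem hy) v hv),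
            ← Module.End.mul_apply, ← Module.End.mul_apply] at e
          simp only [mul_assoc, ← map_mul, mul_inv_cancel, map_one, mul_one] at e
          rw [hfix v hv] at e
          exact Units.ext (smul_left_injective K hv0 (e.symm.trans (one_smul K v).symm))
      · exact hA.char_comm_of_not_theta hRθ hRt hcardZ h1 hv hv0 _ _
    have key' : (x : H) * θ (x : H)⁻¹ * y * ((x : H) * θ (x : H)⁻¹)⁻¹ * y⁻¹ = 1 :=
      congrArg Subtype.val key
    rw [mul_inv_eq_one, mul_inv_eq_iff_eq_mul] at key'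
    exact key'.symm
  -- the second centre is the centre
  have step3 : ∀ x ∈ wSub R, x ∈ zSub R := fun x hx => by
    have eθ : x⁻¹ * θ x ∈ zSub R := by
      have h : x⁻¹ * θ x⁻¹⁻¹ ∈ zSub R := step2 ⟨x⁻¹, (wSub R).inv_mem hx⟩
      rwa [inv_inv] at h
    have eθ' : x⁻¹ * θ (θ x) ∈ zSub R := by
      have h := (zSub R).mul_mem eθ (hZθ _ eθ)
      rwa [map_mul, map_inv, mul_assoc, mul_inv_cancel_left] at h
    have hprod : x * t x ∈ zSub R := by
      have hxx := (wSub R).mul_mem hx (hWt x hx)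
      refine hA.mem_of_fixed_mod (zSub R) hZθ hZt
        (fun n hn => by rw [conj_zSub R hn hxx.1]; exact hn) ?_ ?_
      · rw [map_mul]
        refine mul_congr_mod (zSub_le_wSub R) hcW (hWt x hx) eθ ?_
        rw [hA.th_t, ← map_inv, ← map_mul]
        exact hZt _ eθ'
      · rw [map_mul, hA.t2]
        exact swap_congr_mod hcW hx (hWt x hx)
    refine ⟨hx.1, Subgroup.mem_centralizer_iff.2 fun y hy => ?_⟩
    set X : wSub R := ⟨x, hx⟩
    have key : commHom R X ⟨y, hy⟩ = 1 := hkill _ fun l v hv hv0 => by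
      by_cases h1 : FixesChar θ (zSub R) l
      swap
      · exact hA.char_comm_of_not_theta hRθ hRt hcardZ h1 hv hv0 _ _
      let Y : R := ⟨y, hy⟩ * ⟨θ y, hRθ y hy⟩ * ⟨θ (θ y), hRθ _ (hRθ y hy)⟩
      have hY : (Y : H)⁻¹ * θ Y ∈ mSub R := by
        simp only [Y, Subgroup.coe_mul, map_mul, hA.th3]
        rw [mul_assoc y]
        exact swap_congr_mod (comm_mem_mSub R) hy (R.mul_mem (hRθ y hy) (hRθ _ (hRθ y hy)))
      obtain ⟨c, hc, hcθ⟩ := hA.exists_fixed (mSub R) hMθ hY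
      have hcR : c ∈ R := by
        have := R.mul_mem Y.2 (show (Y : H)⁻¹ * c ∈ R from hc.1)
        rwa [mul_inv_cancel_left] at this
      set C : R := ⟨c, hcR⟩
      have hμθ : θ (commHom R X C : H) = commHom R X C := by
        simp only [commHom_apply, X, C, map_mul, map_inv, hcθ]
        exact comm_congr R eθ hcR
      have hμt : t (commHom R X C : H) = commHom R X C := by
        have e1 : (x⁻¹)⁻¹ * t x ∈ zSub R := by rwa [inv_inv]
        have h := comm_congr R e1 (R.inv_mem hcR)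
        have e2 : commHom R X⁻¹ C⁻¹ = commHom R X C := by
          have e3 : commHom R X⁻¹ C * commHom R X C = 1 := by
            rw [← commHom_mul, inv_mul_cancel]
            exact Subtype.ext (by simp [commHom_apply])
          rw [map_inv, eq_inv_of_mul_eq_one_left e3, inv_inv]
        simp only [commHom_apply, X, C, map_mul, map_inv, hA.t_eq_inv hcθ] at h ⊢
        rw [h]
        exact congrArg Subtype.val e2
      have hμ : commHom R X C = 1 := Subtype.ext (hA.fixH _ hμθ hμt)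
      have hc1 : commHom R X C = commHom R X Y := commHom_congr R hc
      have hrot : ∀ z : H, ∀ hz : z ∈ R, commHom R X ⟨θ z, hRθ z hz⟩ =
          ⟨θ (commHom R X ⟨z, hz⟩ : H), hZθ _ (commHom R X ⟨z, hz⟩).2⟩ := fun z hz =>
        Subtype.ext (by
          simp only [commHom_apply, X, map_mul, map_inv]
          exact (comm_congr R eθ (hRθ z hz)).symm)
      have hl : ∀ (z : zSub R) hz, l ⟨θ (z : H), hz⟩ = l z := fun z hz => h1 z hz
      refine hA.units_eq_one l _ 3 (by norm_num) ?_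
      have e := congrArg l (hc1.symm.trans hμ)
      rw [map_one, map_mul, map_mul, map_mul, map_mul, hrot _ (hRθ y hy), hl, hrot y hy, hl] at e
      rw [pow_three', e]
    have key' : x * y * x⁻¹ * y⁻¹ = 1 := congrArg Subtype.val key
    rw [mul_inv_eq_one, mul_inv_eq_iff_eq_mul] at key'
    exact key'.symm
  -- nilpotency
  by_contra hcon
  haveI : Nontrivial (R ⧸ Subgroup.center R) := by
    rw [QuotientGroup.nontrivial_iff]
    intro h
    exact hcon ⟨⟨fun a b => (Subgroup.mem_center_iff.1 (h ▸ Subgroup.mem_top b) a)⟩⟩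
  obtain ⟨⟨q, hq⟩, hq1'⟩ := (Subgroup.ne_bot_iff_exists_ne_one).1
    (Group.IsNilpotent.center_ne_bot (G := R ⧸ Subgroup.center R))
  have hq1 : q ≠ 1 := fun e => hq1' (Subtype.ext e)
  obtain ⟨x, rfl⟩ := QuotientGroup.mk_surjective q
  refine hq1 ((QuotientGroup.eq_one_iff x).2 ?_)
  have hxW : (x : H) ∈ wSub R := ⟨x.2, fun y hy => by
    have h := Subgroup.mem_center_iff.1 hq (QuotientGroup.mk (⟨y, hy⟩ : R))
    have h' : (QuotientGroup.mk (x * ⟨y, hy⟩ * x⁻¹ * (⟨y, hy⟩ : R)⁻¹) : R ⧸ Subgroup.center R) = 1 := by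
      simp only [QuotientGroup.mk_mul, QuotientGroup.mk_inv, ← h, mul_inv_cancel_right,
        mul_inv_cancel]
    have h'' := Subgroup.mem_center_iff.1 ((QuotientGroup.eq_one_iff _).1 h')
    exact ⟨(x * ⟨y, hy⟩ * x⁻¹ * (⟨y, hy⟩ : R)⁻¹).2,
      Subgroup.mem_centralizer_iff.2 fun r hr => congrArg Subtype.val (h'' ⟨r, hr⟩)⟩⟩
  exact Subgroup.mem_center_iff.2 fun r =>
    Subtype.ext (commute_of_mem_zSub R (step3 _ hxW) r.2)

end IsFpfS3

end Cfsg.Agent.H90
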