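import Cfsg.Agent.H90.FpfS3Main

set_option autoImplicit false

namespace Cfsg.Agent.H90

universe u

local notation "S₃" => Equiv.Perm (Fin 3)

/-- An automorphism preserving a subgroup, on that subgroup. -/
noncomputable def resAut {G : Type*} [Group G] [Finite G] (V : Subgroup G) (a : MulAut G)
    (ha : ∀ v ∈ V, a v ∈ V) : MulAut V :=
  MulEquiv.ofBijective ((a.toMonoidHom.comp V.subtype).codRestrict V fun v => ha v v.2)
    (Finite.injective_iff_bijective.1 fun x y h => Subtype.ext (a.injective (congrArg Subtype.val h)))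

theorem resAut_apply {G : Type*} [Group G] [Finite G] (V : Subgroup G) (a : MulAut G)
    (ha : ∀ v ∈ V, a v ∈ V) (v : V) : (resAut V a ha v : G) = a v := rfl

/-- An invariant normal subgroup gives an action on the quotient. -/
noncomputable def quotAction {G : Type*} [Group G] {A : Type*} [Group A] (φ : A →* MulAut G)
    (N : Subgroup G) [N.Normal] (hN : ∀ a, ∀ n ∈ N, φ a n ∈ N) : A →* MulAut (G ⧸ N) where
  toFun a := QuotientGroup.congr N N (φ a) (le_antisymm
    (by rintro _ ⟨n, hn, rfl⟩; exact hN a n hn)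
    (fun n hn => ⟨φ a⁻¹ n, hN _ n hn, by
      change φ a (φ a⁻¹ n) = n
      rw [← MulAut.mul_apply, ← map_mul, mul_inv_cancel, map_one, MulAut.one_apply]⟩))
  map_one' := MulEquiv.ext fun x => by
    induction x using QuotientGroup.induction_on with
    | H x => simp
  map_mul' a b := MulEquiv.ext fun x => by
    induction x using QuotientGroup.induction_on with
    | H x => simp [MulAut.mul_apply]

theorem quotAction_mk {G : Type*} [Group G] {A : Type*} [Group A] (φ : A →* MulAut G)
    (N : Subgroup G) [N.Normal] (hN : ∀ a, ∀ n ∈ N, φ a n ∈ N) (a : A) (x : G) :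
    quotAction φ N hN a (QuotientGroup.mk x) = QuotientGroup.mk (φ a x) := by
  simp [quotAction]

/-- Fixed points of a coprime action on a quotient are trivial if those on the group are. -/
theorem eq_one_of_quotAction {G : Type*} [Group G] [Finite G] (φ : S₃ →* MulAut G)
    (hcop : (Nat.card S₃).Coprime (Nat.card G)) [Group.IsSolvable G]
    (hfpf : ∀ g, (∀ a, φ a g = g) → g = 1) (N : Subgroup G) [N.Normal]
    (hN : ∀ a, ∀ n ∈ N, φ a n ∈ N) (x : G ⧸ N) (hx : ∀ a, quotAction φ N hN a x = x) : x = 1 := by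
  obtain ⟨u, rfl⟩ := QuotientGroup.mk_surjective x
  obtain ⟨c, hc, hcfix⟩ := Cfsg.Agent.H20.External.exists_fixed_mem_coset φ hcop
    (Or.inr inferInstance) N hN (k := u) fun a => by
      have := (hx a).symm
      rw [quotAction_mk, QuotientGroup.eq] at this
      exact this
  rw [hfpf c hcfix, mul_one] at hc
  rw [QuotientGroup.eq_one_iff]
  simpa using N.inv_mem hc

/-- The automorphisms of a finite elementary abelian group act faithfully and linearly over any extension
of the prime field, compatibly with products. -/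
theorem exists_linearization {G : Type u} [CommGroup G] [Finite G] (r : ℕ) [Fact r.Prime]
    (K : Type*) [Field K] [Algebra (ZMod r) K] [Module (ZMod r) (Additive G)] :
    ∃ (d : Type u) (ι : MulAut G →* Module.End K (d → K)), Function.Injective ι ∧
      ∀ {α : Type} [Fintype α] (f : α → MulAut G), (∀ x, ∏ a, f a x = 1) → ∑ a, ι (f a) = 0 := by
  classical
  let d := Module.Basis.ofVectorSpaceIndex (ZMod r) (Additive G)
  let _ : Fintype d := Fintype.ofFinite _
  let bas : Module.Basis d (ZMod r) (Additive G) := Module.Basis.ofVectorSpace (ZMod r) (Additive G)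
  let e0 : MulAut G →* Module.End (ZMod r) (Additive G) :=
    { toFun := fun f => (MonoidHom.toAdditive f.toMonoidHom).toZModLinearMap r
      map_one' := rfl
      map_mul' := fun f g => rfl }
  let R : Module.End (ZMod r) (Additive G) →+* Module.End K (d → K) :=
    ((Matrix.toLinAlgEquiv' (R := K) (n := d)).toRingHom.comp
      ((algebraMap (ZMod r) K).mapMatrix)).comp (LinearMap.toMatrixAlgEquiv bas).toRingHom
  have hR : Function.Injective R := fun x y h => by
    apply (LinearMap.toMatrixAlgEquiv bas).injective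
    apply Matrix.map_injective (algebraMap (ZMod r) K).injective
    exact (Matrix.toLinAlgEquiv' (R := K) (n := d)).injective h
  refine ⟨↥d, R.toMonoidHom.comp e0, fun f g h => MulEquiv.ext fun v =>
    (LinearMap.congr_fun (hR h) (Additive.ofMul v) :), fun {α} _ f hf => ?_⟩
  have h0 : ∑ a, e0 (f a) = 0 := LinearMap.ext fun x => by
    rw [LinearMap.sum_apply, LinearMap.zero_apply]
    exact Additive.toMul.injective ((toMul_sum _ _).trans (hf (Additive.toMul x)))
  rw [show ∑ a, (R.toMonoidHom.comp e0) (f a) = R (∑ a, e0 (f a)) from (map_sum R _ _).symm, h0,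
    map_zero]

theorem perm3_facts :
    ∃ σ τ : S₃, σ * (σ * σ) = 1 ∧ τ * τ = 1 ∧ τ * σ = σ * (σ * τ) ∧
      ∀ a : S₃, a = 1 ∨ a = σ ∨ a = σ * σ ∨ a = τ ∨ a = σ * τ ∨ a = σ * (σ * τ) :=
  ⟨finRotate 3, Equiv.swap 0 1, by decide, by decide, by decide, by decide⟩

/-- Fixed-point-free actions of the symmetric group of degree three on solvable groups of order prime
to six have nilpotent derived group. -/
theorem isNilpotent_commutator_of_fpfS3 : ∀ (n : ℕ) (G : Type u) [Group G] [Finite G]
    [Group.IsSolvable G] (φ : S₃ →* MulAut G), Nat.card G = n → (Nat.card G).Coprime 6 →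
    (∀ g, (∀ a, φ a g = g) → g = 1) → Group.IsNilpotent (commutator G) := by
  intro n
  induction n using Nat.strong_induction_on with
  | _ n ih =>
  intro G _ _ _ φ hn hcop hfpf
  rcases subsingleton_or_nontrivial G with hG | hG
  · exact @CommGroup.isNilpotent _ { (inferInstance : Group (commutator G)) with
      mul_comm := fun a b => Subsingleton.elim _ _ }
  have hc6 : Nat.card S₃ = 6 := by rw [Nat.card_eq_fintype_card]; decide
  have hcop' : (Nat.card S₃).Coprime (Nat.card G) := by rw [hc6]; exact hcop.symm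
  obtain ⟨σ, τ, hσ3, hτ2, hτσ, hcases⟩ := perm3_facts
  -- a minimal invariant normal subgroup
  classical
  have hex : ∃ m, ∃ V : Subgroup G, V.Normal ∧ V ≠ ⊥ ∧ (∀ a, ∀ v ∈ V, φ a v ∈ V) ∧
      Nat.card V = m :=
    ⟨_, ⊤, inferInstance, top_ne_bot, fun a v _ => Subgroup.mem_top _, rfl⟩
  obtain ⟨V, hVn, hVne, hVφ, hVcard⟩ := Nat.find_spec hex
  have hmin : ∀ W : Subgroup G, W.Normal → (∀ a, ∀ w ∈ W, φ a w ∈ W) → W ≤ V → W ≠ ⊥ → W = V := by
    intro W hW hWφ hle hne
    refine Subgroup.eq_of_le_of_card_ge hle ?_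
    rw [hVcard]
    exact Nat.find_min' hex ⟨W, hW, hne, hWφ, rfl⟩
  haveI := hVn
  have hVab : ∀ a ∈ V, ∀ b ∈ V, a * b = b * a := by
    intro a ha b hb
    have hlt : ⁅V, V⁆ < V := Group.IsSolvable.commutator_lt_of_ne_bot hVne
    have h0 : ⁅V, V⁆ = ⊥ := by
      by_contra hne
      refine hlt.ne (hmin _ inferInstance (fun c w hw => ?_) hlt.le hne)
      have hle : (⁅V, V⁆).map (φ c).toMonoidHom ≤ ⁅V, V⁆ := by
        rw [Subgroup.map_commutator]
        exact Subgroup.commutator_mono (by rintro _ ⟨v, hv, rfl⟩; exact hVφ c v hv)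
          (by rintro _ ⟨v, hv, rfl⟩; exact hVφ c v hv)
      exact hle ⟨w, hw, rfl⟩
    exact Subgroup.mem_centralizer_iff.1 ((Subgroup.commutator_eq_bot_iff_le_centralizer.1 h0) hb) a ha
  -- its exponent is a prime
  have hVone : Nat.card V ≠ 1 := fun h => hVne (Subgroup.card_eq_one.1 h)
  obtain ⟨r, hr, hrdvd⟩ := Nat.exists_prime_and_dvd hVone
  haveI := Fact.mk hr
  have hexp : ∀ v ∈ V, v ^ r = 1 := by
    let W : Subgroup G :=
      { carrier := {v | v ∈ V ∧ v ^ r = 1}
        one_mem' := ⟨V.one_mem, one_pow r⟩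
        mul_mem' := fun {a b} ha hb => ⟨V.mul_mem ha.1 hb.1, by
          rw [(show Commute a b from hVab a ha.1 b hb.1).mul_pow, ha.2, hb.2, one_mul]⟩
        inv_mem' := fun {a} ha => ⟨V.inv_mem ha.1, by rw [inv_pow, ha.2, inv_one]⟩ }
    have hW : W = V := by
      refine hmin W ⟨fun w hw g => ⟨hVn.conj_mem w hw.1 g, by rw [conj_pow, hw.2]; group⟩⟩
        (fun a w hw => ⟨hVφ a w hw.1, by rw [← map_pow, hw.2, map_one]⟩) (fun w hw => hw.1) ?_
      obtain ⟨x, hx⟩ := exists_prime_orderOf_dvd_card' r hrdvd
      intro hbot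
      have hmem : (x : G) ∈ W :=
        ⟨x.2, congrArg Subtype.val (hx ▸ pow_orderOf_eq_one x : x ^ r = 1)⟩
      rw [hbot, Subgroup.mem_bot] at hmem
      rw [show x = 1 from Subtype.ext hmem, orderOf_one] at hx
      exact hr.ne_one hx.symm
    intro v hv
    exact ((show v ∈ W from hW.symm ▸ hv).2 : v ^ r = 1)
  have hr6 : Nat.Coprime r 6 := hcop.coprime_dvd_left (hrdvd.trans V.card_subgroup_dvd_card)
  -- the quotient by `V`
  have hGV : Group.IsNilpotent (commutator (G ⧸ V)) := by
    refine ih _ ?_ (G ⧸ V) (quotAction φ V hVφ) rfl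
      (hcop.coprime_dvd_left V.card_quotient_dvd_card) (eq_one_of_quotAction φ hcop' hfpf V hVφ)
    rw [← hn, Subgroup.card_eq_card_quotient_mul_card_subgroup V]
    exact lt_mul_of_one_lt_right Nat.card_pos (lt_of_le_of_ne Nat.card_pos (Ne.symm hVone))
  -- the group induced on `V`
  set C := Subgroup.centralizer (V : Set G)
  have hCφ : ∀ a, ∀ c ∈ C, φ a c ∈ C := fun a c hc => Subgroup.mem_centralizer_iff.2 fun v hv => by
    have h := congrArg (φ a) (Subgroup.mem_centralizer_iff.1 hc _ (hVφ a⁻¹ v hv))
    simpa only [map_mul, ← MulAut.mul_apply, ← map_mul φ, mul_inv_cancel, map_one,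
      MulAut.one_apply] using h
  haveI : C.Normal := inferInstance
  have hVC : V ≤ C := fun v hv => Subgroup.mem_centralizer_iff.2 fun w hw => hVab w hw v hv
  let H := G ⧸ C
  let ψ : S₃ →* MulAut H := quotAction φ C hCφ
  have hHfpf : ∀ x, (∀ a, ψ a x = x) → x = 1 := eq_one_of_quotAction φ hcop' hfpf C hCφ
  have hHcop : (Nat.card H).Coprime 6 := hcop.coprime_dvd_left C.card_quotient_dvd_card
  have hHnil : Group.IsNilpotent (commutator H) := by
    refine ih _ ?_ H ψ rfl hHcop hHfpf
    rw [← hn, Subgroup.card_eq_card_quotient_mul_card_subgroup C]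
    refine lt_mul_of_one_lt_right Nat.card_pos (lt_of_lt_of_le
      (lt_of_le_of_ne Nat.card_pos (Ne.symm hVone)) (Subgroup.card_le_of_le hVC))
  -- the module
  let _ : CommGroup V :=
    { (inferInstance : Group V) with mul_comm := fun a b => Subtype.ext (hVab a a.2 b b.2) }
  let K := AlgebraicClosure (ZMod r)
  obtain ⟨d, ι, hι, hιsum⟩ := @exists_linearization V _ _ r _ K _ _
    (AddCommGroup.zmodModule fun x => Additive.toMul.injective (Subtype.ext (hexp _ (Additive.toMul x).2)))
  let cv : G →* MulAut V := MulAut.conjNormal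
  have hker : C ≤ (ι.comp cv).ker := fun g hg => by
    rw [MonoidHom.mem_ker, MonoidHom.comp_apply,
      show cv g = 1 from MulEquiv.ext fun v => Subtype.ext (by
        rw [MulAut.conjNormal_apply, ← Subgroup.mem_centralizer_iff.1 hg v v.2,
          mul_inv_cancel_right]; rfl), map_one]
  let ρ : H →* Module.End K (d → K) := QuotientGroup.lift C (ι.comp cv) hker
  have hρinj : Function.Injective ρ := (injective_iff_map_eq_one ρ).2 fun x hx => by
    induction x using QuotientGroup.induction_on with
    | H g =>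
      rw [QuotientGroup.eq_one_iff]
      refine Subgroup.mem_centralizer_iff.2 fun v hv => ?_
      have h : cv g = 1 := hι (hx.trans (map_one ι).symm)
      have h' := congrArg Subtype.val (DFunLike.congr_fun h (⟨v, hv⟩ : V))
      rw [MulAut.conjNormal_apply] at h'
      exact (mul_inv_eq_iff_eq_mul.1 h').symm
  let av : S₃ →* MulAut V :=
    { toFun := fun a => resAut V (φ a) (hVφ a)
      map_one' := MulEquiv.ext fun v => Subtype.ext (by rw [resAut_apply, map_one]; rfl)
      map_mul' := fun a b => MulEquiv.ext fun v => Subtype.ext (by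
        rw [resAut_apply, map_mul]; rfl) }
  let Φ : S₃ →* Module.End K (d → K) := ι.comp av
  have hcv : ∀ a g, av a * cv g = cv (φ a g) * av a := fun a g =>
    MulEquiv.ext fun v => Subtype.ext (by
      simp only [MulAut.mul_apply, MulAut.conjNormal_apply, av, cv, MonoidHom.coe_mk, OneHom.coe_mk,
        resAut_apply, map_mul, map_inv])
  have hsum : ∑ a : S₃, Φ a = 0 := by
    refine hιsum av fun x => ?_
    refine Subtype.ext (hfpf _ fun b => ?_)
    have hb : av b (∏ a : S₃, av a x) = ∏ a : S₃, av a x := by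
      rw [map_prod]
      exact Fintype.prod_equiv (Equiv.mulLeft b) _ _ fun a => by
        rw [Equiv.coe_mulLeft, map_mul, MulAut.mul_apply]
    exact congrArg Subtype.val hb
  have h6 : (6 : K) ≠ 0 := by
    rw [show (6 : K) = ((6 : ℕ) : K) by norm_num, Ne, CharP.cast_eq_zero_iff K r]
    exact fun h => hr.ne_one (Nat.eq_one_of_dvd_coprimes hr6 dvd_rfl h)
  have hA : IsFpfS3 ρ (ψ σ) (ψ τ) (Φ σ) (Φ τ) := by
    refine ⟨fun h => ?_, fun h => ?_, fun h => ?_, fun h h1 h2 => ?_, fun v => ?_, fun v => ?_,
      fun v => ?_, fun v h1 h2 => ?_, fun h v => ?_, fun h v => ?_, hρinj, hHcop⟩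
    · rw [← MulAut.mul_apply, ← MulAut.mul_apply, ← map_mul, ← map_mul, mul_assoc, hσ3, map_one,
        MulAut.one_apply]
    · rw [← MulAut.mul_apply, ← map_mul, hτ2, map_one, MulAut.one_apply]
    · simp only [← MulAut.mul_apply, ← map_mul, hτσ, mul_assoc]
    · refine hHfpf h fun a => ?_
      rcases hcases a with rfl | rfl | rfl | rfl | rfl | rfl <;>
        simp only [map_mul, map_one, MulAut.mul_apply, MulAut.one_apply, h1, h2]
    · rw [← Module.End.mul_apply, ← Module.End.mul_apply, ← map_mul, ← map_mul, mul_assoc, hσ3, map_one,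
        Module.End.one_apply]
    · rw [← Module.End.mul_apply, ← map_mul, hτ2, map_one, Module.End.one_apply]
    · simp only [← Module.End.mul_apply, ← map_mul, hτσ, mul_assoc]
    · have h := LinearMap.congr_fun hsum v
      rw [LinearMap.sum_apply, LinearMap.zero_apply,
        Finset.sum_congr rfl (g := fun _ => v) fun a _ => by
          rcases hcases a with rfl | rfl | rfl | rfl | rfl | rfl <;>
            simp only [map_mul, map_one, Module.End.mul_apply, Module.End.one_apply, h1, h2],
        Finset.sum_const, Finset.card_univ, ← Nat.card_eq_fintype_card, hc6,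
        ← Nat.cast_smul_eq_nsmul K, smul_eq_zero] at h
      exact h.resolve_left (by exact_mod_cast h6)
    all_goals
      induction h using QuotientGroup.induction_on with
      | H g =>
        change (ι (av _) * ι (cv g)) v = (ι (cv (φ _ g)) * ι (av _)) v
        rw [← map_mul, ← map_mul, hcv]
  -- no normal subgroup of order a power of `r`
  have hN : ∀ N : Subgroup H, N.Normal → IsPGroup r N → (∀ n ∈ N, ψ σ n ∈ N) →
      (∀ n ∈ N, ψ τ n ∈ N) → N = ⊥ := by
    intro N hNn hNp hNσ hNτ
    haveI := hNn
    have hNψ : ∀ a, ∀ m ∈ N, ψ a m ∈ N := fun a m hm => by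
      rcases hcases a with rfl | rfl | rfl | rfl | rfl | rfl
      · rw [map_one, MulAut.one_apply]; exact hm
      · exact hNσ _ hm
      · rw [map_mul, MulAut.mul_apply]; exact hNσ _ (hNσ _ hm)
      · exact hNτ _ hm
      · rw [map_mul, MulAut.mul_apply]; exact hNσ _ (hNτ _ hm)
      · rw [map_mul, map_mul, MulAut.mul_apply, MulAut.mul_apply]
        exact hNσ _ (hNσ _ (hNτ _ hm))
    let M : Subgroup G := N.comap (QuotientGroup.mk' C)
    have hMφ : ∀ a, ∀ m ∈ M, φ a m ∈ M := fun a m hm => by
      have := hNψ a _ hm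
      simp only [ψ, QuotientGroup.mk'_apply, quotAction_mk] at this
      exact this
    let F : Subgroup G := V ⊓ Subgroup.centralizer (M : Set G)
    have hFφ : ∀ a, ∀ f ∈ F, φ a f ∈ F := fun a f hf =>
      ⟨hVφ a f hf.1, Subgroup.mem_centralizer_iff.2 fun m hm => by
        have h := congrArg (φ a) (Subgroup.mem_centralizer_iff.1 hf.2 _ (hMφ a⁻¹ m hm))
        simpa only [map_mul, ← MulAut.mul_apply, ← map_mul φ, mul_inv_cancel, map_one,
          MulAut.one_apply] using h⟩
    haveI : M.Normal := inferInstance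
    have hFne : F ≠ ⊥ := by
      let w : H →* MulAut V := QuotientGroup.lift C cv fun g hg => MonoidHom.mem_ker.2
        (hι ((MonoidHom.mem_ker.1 (hker hg)).trans (map_one ι).symm))
      letI : MulAction N V := MulAction.compHom V (w.comp N.subtype)
      have hone : (1 : V) ∈ MulAction.fixedPoints N V := fun m => map_one (w m)
      obtain ⟨b, hb, hb1⟩ := hNp.exists_fixed_point_of_prime_dvd_card_of_fixed_point V hrdvd hone
      intro hbot
      refine hb1 (Subtype.ext ?_)
      have hmem : (b : G) ∈ F := ⟨b.2, Subgroup.mem_centralizer_iff.2 fun m hm => by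
        have h : (cv m b : G) = b := congrArg Subtype.val (hb ⟨QuotientGroup.mk m, hm⟩)
        rw [MulAut.conjNormal_apply] at h
        exact mul_inv_eq_iff_eq_mul.1 h⟩
      rw [hbot, Subgroup.mem_bot] at hmem
      exact hmem.symm
    have hF : F = V := hmin F inferInstance hFφ inf_le_left hFne
    rw [eq_bot_iff]
    intro x hx
    induction x using QuotientGroup.induction_on with
    | H g =>
      rw [Subgroup.mem_bot, QuotientGroup.eq_one_iff]
      refine Subgroup.mem_centralizer_iff.2 fun v hv => ?_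
      exact (Subgroup.mem_centralizer_iff.1 (hF.symm ▸ hv : v ∈ F).2 g hx).symm
  have hHab := hA.commute_of_fpfS3 ψ (by rw [hc6]; exact hHcop.symm) σ τ rfl rfl hHnil hN
  have hGC : commutator G ≤ C := by
    rw [commutator_def, Subgroup.commutator_le]
    intro a _ b _
    rw [← QuotientGroup.eq_one_iff]
    simp only [commutatorElement_def, QuotientGroup.mk_mul, QuotientGroup.mk_inv]
    rw [hHab (QuotientGroup.mk a) (QuotientGroup.mk b), mul_inv_cancel_right, mul_inv_cancel]
  have hmem : ∀ x : commutator G, QuotientGroup.mk' V (x : G) ∈ commutator (G ⧸ V) := fun x => by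
    have h := Subgroup.mem_map_of_mem (QuotientGroup.mk' V) x.2
    exact Subgroup.commutator_mono le_top le_top ((Subgroup.map_commutator ⊤ ⊤ _).le h)
  haveI := hGV
  refine Subgroup.isNilpotent_of_ker_le_center
    (((QuotientGroup.mk' V).comp (commutator G).subtype).codRestrict _ hmem) ?_
  intro x hx
  have hxV : (x : G) ∈ V := (QuotientGroup.eq_one_iff _).1 (congrArg Subtype.val hx)
  exact Subgroup.mem_center_iff.2 fun y =>
    Subtype.ext (Subgroup.mem_centralizer_iff.1 (hGC y.2) x hxV).symm

end Cfsg.Agent.H90
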