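import Cfsg.Agent.H90.FpfS3Basic

set_option autoImplicit false

namespace Cfsg.Agent.H90

/-- The scalar identities behind the rotation lemma. -/
theorem cube_eq_zero_of_rotation {R : Type*} [CommRing R] {B B' C C' : R} (hB : B * B' = 1)
    (hC : C * C' = 1) (h3 : B * C + B * C' = 1 + B * B)
    (hs : B' * C' * B + B' * C' * B' = 1 + B' * C' * (B' * C')) :
    (C * C * C - 1) * (C * C * C - 1) * (C * C * C - 1) = 0 := by
  have h6 : B * (C * C + 1) = C * (1 + B * B) := by linear_combination C * h3 - B * hC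
  have hs' : B * B * C + C = B * B * C * C + 1 := by
    linear_combination (B * B * C * C) * hs
      - (B * B * C) * ((B * B') * hC + hB)
      - (C * ((B * B') * (B * B'))) * hC - C * (B * B' + 1) * hB
      + ((B * B') * (B * B') * (C * C' + 1)) * hC + (B * B' + 1) * hB
  have h5 : C * B * B * (C - 1) = C - 1 := by linear_combination (-1 : R) * hs'
  have h7 : B * (C * C + 1) * (C - 1) = (C + 1) * (C - 1) := by
    linear_combination (C - 1) * h6 + h5
  have h8 : (C - 1) * (C - 1) * (C * C * C - 1) = 0 := by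
    linear_combination (-((C * C + 1) ^ 2)) * h5 + C * (B * (C * C + 1) + (C + 1)) * h7
  linear_combination (C * C + C + 1) ^ 2 * h8

/-- A unipotent element of finite order invertible in the ground field is trivial. -/
theorem eq_zero_of_pow_eq_one {K R : Type*} [Field K] [Ring R] [Algebra K R] (y : R)
    (hy : y * (y * y) = 0) (N : ℕ) (hN : (N : K) ≠ 0) (h : (1 + y) ^ N = 1) : y = 0 := by
  have key : ∀ n : ℕ, (1 + y) ^ n = 1 + (n : K) • y + ((n.choose 2 : ℕ) : K) • (y * y) := by
    intro n
    induction n with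
    | zero => simp
    | succ n ih =>
      rw [pow_succ, ih, Nat.choose_succ_succ', Nat.choose_one_right]
      simp only [add_mul, mul_add, smul_mul_assoc, mul_one, one_mul, Nat.cast_add, add_smul,
        mul_assoc, hy, smul_zero, Nat.cast_one, one_smul]
      abel
  rw [key, add_assoc, add_eq_left] at h
  have h2 := congrArg (fun a => a * y) h
  simp only [add_mul, smul_mul_assoc, mul_assoc, hy, smul_zero, add_zero, zero_mul] at h2
  rw [smul_eq_zero] at h2
  rw [h2.resolve_left hN, smul_zero, add_zero, smul_eq_zero] at h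
  exact h.resolve_left hN

variable {H K V : Type*} [Group H] [Field K] [AddCommGroup V] [Module K V]

/-- The eigenspace of a character. -/
def eigSub (ρ : H →* Module.End K V) (Z : Subgroup H) (l : Z →* Kˣ) : Submodule K V where
  carrier := {v | IsEig ρ Z l v}
  add_mem' := fun {a b} ha hb z => by simp only [map_add, smul_add, ha z, hb z]
  zero_mem' := fun z => by simp
  smul_mem' := fun k a ha z => by rw [map_smul, ha z, smul_comm]

theorem mem_eigSub {ρ : H →* Module.End K V} {Z : Subgroup H} {l : Z →* Kˣ} {v : V} :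
    v ∈ eigSub ρ Z l ↔ IsEig ρ Z l v := Iff.rfl

/-- The centralizer of `Z` acts on the eigenspace. -/
def eigRep (ρ : H →* Module.End K V) (Z : Subgroup H) (l : Z →* Kˣ) :
    Subgroup.centralizer (Z : Set H) →* Module.End K (eigSub ρ Z l) where
  toFun x := (ρ x).restrict fun v hv z => by
    rw [← Module.End.mul_apply, ← map_mul, Subgroup.mem_centralizer_iff.1 x.2 z z.2, map_mul,
      Module.End.mul_apply, hv z, map_smul]
  map_one' := LinearMap.ext fun v => Subtype.ext (by simp)
  map_mul' x y := LinearMap.ext fun v => Subtype.ext (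
    (LinearMap.congr_fun (map_mul ρ (x : H) y) (v : V)))

theorem eigRep_apply (ρ : H →* Module.End K V) (Z : Subgroup H) (l : Z →* Kˣ)
    (x : Subgroup.centralizer (Z : Set H)) (v : eigSub ρ Z l) :
    (eigRep ρ Z l x v : V) = ρ (x : H) v := rfl

namespace IsFpfS3

variable {ρ : H →* Module.End K V} {θ t : MulAut H} {Θ T : Module.End K V}
  (hA : IsFpfS3 ρ θ t Θ T) [Finite H] {Z : Subgroup H}
  (hZθ : ∀ z ∈ Z, θ z ∈ Z) (hZt : ∀ z ∈ Z, t z ∈ Z) {l : Z →* Kˣ} {v : V}
include hA hZθ hZt

/-- On the eigenspace of a character fixed by the rotation but not by the involution, the commutators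
with the rotation act trivially. -/
theorem fix_of_theta [Fintype Z] (hcard : (Fintype.card Z : K) ≠ 0)
    (h1 : FixesChar θ Z l) (h2 : ¬ FixesChar t Z l) {x : H}
    (hx : x ∈ Subgroup.centralizer (Z : Set H))
    (hw : θ (x * θ x⁻¹) * (x * θ x⁻¹) * (θ (x * θ x⁻¹))⁻¹ * (x * θ x⁻¹)⁻¹ ∈ Z)
    (hord : (orderOf (x * θ x⁻¹) : K) ≠ 0) (hv : IsEig ρ Z l v) :
    ρ (x * θ x⁻¹) v = v := by
  rcases eq_or_ne v 0 with rfl | hv0
  · simp
  have hcl : ∀ y, y ∈ Subgroup.centralizer (Z : Set H) → θ y ∈ Subgroup.centralizer (Z : Set H) := by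
    intro y hy
    rw [Subgroup.mem_centralizer_iff] at hy ⊢
    intro z hz
    have := congrArg θ (hy (θ (θ z)) (hZθ _ (hZθ _ hz)))
    simpa only [map_mul, hA.th3] using this
  set G := Subgroup.centralizer (Z : Set H)
  set W := eigSub ρ Z l
  set r := eigRep ρ Z l with hr
  haveI : Nontrivial W := nontrivial_of_ne ⟨v, hv⟩ 0 fun e => hv0 (congrArg Subtype.val e)
  let sθ : G → G := fun y => ⟨θ y, hcl _ y.2⟩
  have hΘW : ∀ u ∈ W, Θ u ∈ W := fun u hu z => by
    have := hA.isEig_Theta hZθ hu z
    simpa [MulAut.mul_apply, h1 ⟨θ z, hZθ z z.2⟩ (hZθ _ (hZθ z z.2)), h1 z (hZθ _ z.2)] using this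
  let S : Module.End K W := Θ.restrict hΘW
  have hSr : ∀ y : G, S * r y = r (sθ y) * S := fun y =>
    LinearMap.ext fun u => Subtype.ext (hA.cth _ _)
  have hS3 : S * S * S = 1 := LinearMap.ext fun u => Subtype.ext (hA.Th3 _)
  have hS3' : ∀ X Y : Module.End K W, X * S = Y * S → X = Y := fun X Y h => by
    have := congrArg (fun a => a * (S * S)) h
    simpa only [mul_assoc, ← mul_assoc S S S, hS3, mul_one] using this
  have I0 : 1 + S + S * S = 0 := LinearMap.ext fun u => Subtype.ext
    (hA.sum_eq_zero_of_theta hZθ hZt hcard h1 h2 u.2)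
  let gx : G := ⟨x, hx⟩
  let c : G := gx * sθ gx⁻¹
  let b : G := sθ c
  have hca : sθ b = b⁻¹ * c⁻¹ := Subtype.ext (by
    simp only [b, c, sθ, gx, Subgroup.coe_mul, Subgroup.coe_inv, map_mul, map_inv, hA.th3]
    group)
  -- the conjugated identity
  have I1 : 1 + r c * S + r c * r b * (S * S) = 0 := by
    have h := congrArg (fun a => r gx * a * r gx⁻¹) I0
    simp only [mul_add, add_mul, mul_one, mul_zero, zero_mul, ← map_mul, mul_inv_cancel,
      map_one] at h
    rw [mul_assoc (r gx) S, hSr, ← mul_assoc (r gx), ← map_mul, mul_assoc (r gx) (S * S),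
      mul_assoc S S, hSr, ← mul_assoc S (r _), hSr, mul_assoc (r _) S S, ← mul_assoc (r gx),
      ← map_mul] at h
    rw [← map_mul r c b, show c * b = gx * sθ (sθ gx⁻¹) from Subtype.ext (by
      simp only [b, c, sθ, gx, Subgroup.coe_mul, Subgroup.coe_inv, map_mul, map_inv]
      group)]
    exact h
  have hU : ∀ y : G, r y * r y⁻¹ = 1 := fun y => by rw [← map_mul, mul_inv_cancel, map_one]
  have hU' : ∀ y : G, r y⁻¹ * r y = 1 := fun y => by rw [← map_mul, inv_mul_cancel, map_one]
  have I2 : (1 - r b) * S = r b - r c⁻¹ := by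
    have h := congrArg (fun a => r c⁻¹ * a) I1
    simp only [mul_add, mul_one, mul_zero, ← mul_assoc, hU', one_mul] at h
    have h' := congrArg (fun a => r b * a) I0
    simp only [mul_add, mul_one, mul_zero, ← mul_assoc] at h'
    rw [sub_mul, one_mul]
    calc S - r b * S = (r c⁻¹ + S + r b * S * S) - (r b + r b * S + r b * S * S)
          + (r b - r c⁻¹) := by abel
      _ = r b - r c⁻¹ := by rw [h, h', sub_zero, zero_add]
  have I3 : r b * r c + r b * r c⁻¹ = 1 + r b * r b := by
    have h := congrArg (fun a => a * r c) I2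
    simp only [mul_assoc, hSr, sub_mul (r b) (r c⁻¹), hU'] at h
    rw [← mul_assoc, show (1 - r b) * r b = r b * (1 - r b) by rw [sub_mul, mul_sub, one_mul, mul_one], mul_assoc, I2,
      mul_sub] at h
    change r b * r b - r b * r c⁻¹ = r b * r c - 1 at h
    rw [eq_sub_iff_add_eq] at h
    rw [← h]; abel
  have I3' : r (sθ b) * r b + r (sθ b) * r b⁻¹ = 1 + r (sθ b) * r (sθ b) := by
    refine hS3' _ _ ?_
    have h := congrArg (fun a => S * a) I3
    simp only [mul_add, mul_one, ← mul_assoc, hSr] at h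
    simp only [mul_assoc, hSr] at h
    rw [show sθ c = b from rfl, show sθ c⁻¹ = b⁻¹ from Subtype.ext (map_inv θ _)] at h
    simp only [add_mul, one_mul, mul_assoc]
    exact h
  -- the commutator of `b` and `c` acts by a scalar
  let w : G := b * c * b⁻¹ * c⁻¹
  have hwz : (w : H) ∈ Z := by
    simpa [w, b, c, sθ, gx] using hw
  have hwc : ∀ y : G, w * y = y * w := fun y => Subtype.ext
    (Subgroup.mem_centralizer_iff.1 y.2 _ hwz)
  set ω : K := (l ⟨w, hwz⟩ : K) with hω
  have hw1 : r w = ω • (1 : Module.End K W) := LinearMap.ext fun u => Subtype.ext (u.2 ⟨w, hwz⟩)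
  have hbc : r b * r c = ω • (r c * r b) := by
    rw [← map_mul, show b * c = w * (c * b) by simp only [w]; group, map_mul, hw1, map_mul,
      smul_mul_assoc, one_mul]
  have hω1 : ω = 1 := by
    by_contra hne
    have e1 : r b⁻¹ * (r b * r c) * r b = ω⁻¹ • (r b * r c) := by
      rw [← mul_assoc (r b⁻¹), hU', one_mul, hbc, inv_smul_smul₀ (Units.ne_zero _)]
    have e2 : r b⁻¹ * (r b * r c⁻¹) * r b = ω • (r b * r c⁻¹) := by
      rw [← mul_assoc (r b⁻¹), hU', one_mul, ← map_mul, show c⁻¹ * b = w * (b * c⁻¹) by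
        calc c⁻¹ * b = c⁻¹ * (b * c) * c⁻¹ := by group
          _ = c⁻¹ * (w * (c * b)) * c⁻¹ := by simp only [w]; group
          _ = c⁻¹ * w * c * (b * c⁻¹) := by group
          _ = w * (b * c⁻¹) := by rw [← hwc c⁻¹]; group, map_mul, hw1, map_mul,
        smul_mul_assoc, one_mul]
    have h := congrArg (fun a => r b⁻¹ * a * r b) I3
    simp only [mul_add, add_mul] at h
    rw [e1, e2, mul_one, hU', mul_assoc (r b⁻¹), mul_assoc (r b) (r b), ← mul_assoc (r b⁻¹),
      hU', one_mul, ← I3] at h
    have hX : r c = ω • r c⁻¹ := by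
      have h' : (ω⁻¹ - 1) • (r b * r c - ω • (r b * r c⁻¹)) = 0 := by
        rw [sub_smul (M := Module.End K W) ω⁻¹ 1, one_smul, smul_sub, inv_smul_smul₀ (Units.ne_zero _)]
        calc _ = (ω⁻¹ • (r b * r c) + ω • (r b * r c⁻¹)) - (r b * r c + r b * r c⁻¹) := by abel
          _ = 0 := by rw [h, sub_self]
      rw [smul_eq_zero, or_iff_right (sub_ne_zero.2 fun e => hne (inv_eq_one.1 e))] at h'
      have := congrArg (fun a => r b⁻¹ * a) (sub_eq_zero.1 h')
      simpa only [mul_smul_comm, ← mul_assoc, hU', one_mul] using this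
    have hC2 : r (c * c) = ω • (1 : Module.End K W) := by
      rw [map_mul]; nth_rw 1 [hX]; rw [smul_mul_assoc, hU']
    have h3 := congrArg (fun a => r b * a * r b⁻¹) hC2
    simp only [mul_smul_comm, smul_mul_assoc, mul_one, hU] at h3
    rw [← map_mul, ← map_mul, show b * (c * c) * b⁻¹ = w * w * (c * c) by
      calc b * (c * c) * b⁻¹ = w * c * (w * c) := by simp only [w]; group
        _ = w * w * (c * c) := by rw [mul_assoc, ← mul_assoc c w, ← hwc c]; group,
      map_mul, map_mul, hw1, hC2] at h3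
    simp only [smul_mul_assoc, mul_smul_comm, mul_one, smul_smul] at h3
    obtain ⟨u, hu⟩ := exists_ne (0 : W)
    have h4 := LinearMap.congr_fun h3 u
    rw [LinearMap.smul_apply, LinearMap.smul_apply, Module.End.one_apply] at h4
    have h5 : ω * ω * ω = ω := by
      have := smul_left_injective K hu h4
      linear_combination this
    have h6 : ω * ω = 1 := mul_right_cancel₀ (Units.ne_zero _) (h5.trans (one_mul ω).symm)
    refine hne ?_
    rw [hω, hA.units_eq_one l _ 2 (by norm_num) (Units.ext (by rw [pow_two]; exact h6)),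
      Units.val_one]
  rw [hω1, one_smul] at hbc
  -- the commutative calculation
  let s : Set (Module.End K W) := {r b, r b⁻¹, r c, r c⁻¹}
  have hcomm : ∀ X ∈ s, ∀ Y ∈ s, X * Y = Y * X := by
    have h1 : Commute (r b) (r c) := hbc
    have hinv : ∀ (y : G) (X : Module.End K W), Commute (r y) X → Commute (r y⁻¹) X :=
      fun y X h => Commute.units_inv_left (u := ⟨r y, r y⁻¹, hU y, hU' y⟩) h
    have hbb : Commute (r b⁻¹) (r b) := (hU' b).trans (hU b).symm
    have hcc : Commute (r c⁻¹) (r c) := (hU' c).trans (hU c).symm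
    have h2 : Commute (r b⁻¹) (r c) := hinv _ _ h1
    have h3 : Commute (r b) (r c⁻¹) := (hinv _ _ h1.symm).symm
    have h4 : Commute (r b⁻¹) (r c⁻¹) := hinv _ _ h3
    intro X hX Y hY
    simp only [s, Set.mem_insert_iff, Set.mem_singleton_iff] at hX hY
    rcases hX with rfl | rfl | rfl | rfl <;> rcases hY with rfl | rfl | rfl | rfl <;>
      first | rfl | exact h1 | exact h1.symm | exact hbb | exact hbb.symm | exact hcc |
        exact hcc.symm | exact h2 | exact h2.symm | exact h3 | exact h3.symm | exact h4 |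
        exact h4.symm
  letI := Subring.closureCommRingOfComm hcomm
  have hmem : ∀ X ∈ s, X ∈ Subring.closure s := fun X hX => Subring.subset_closure hX
  have hcube : (r c * r c * r c - 1) * (r c * r c * r c - 1) * (r c * r c * r c - 1) = 0 := by
    rw [hca, map_mul] at I3'
    exact congrArg Subtype.val (cube_eq_zero_of_rotation (R := Subring.closure s)
      (B := ⟨r b, hmem _ (by simp [s])⟩) (B' := ⟨r b⁻¹, hmem _ (by simp [s])⟩)
      (C := ⟨r c, hmem _ (by simp [s])⟩) (C' := ⟨r c⁻¹, hmem _ (by simp [s])⟩)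
      (Subtype.ext (hU b)) (Subtype.ext (hU c)) (Subtype.ext I3) (Subtype.ext I3'))
  have hpow : r (c ^ 3) = 1 := by
    rw [← sub_eq_zero]
    refine eq_zero_of_pow_eq_one (K := K) _ ?_ (orderOf (x * θ x⁻¹)) hord ?_
    · rw [← mul_assoc, pow_succ, pow_two, map_mul, map_mul]; exact hcube
    · rw [add_sub_cancel, ← map_pow, ← pow_mul, mul_comm, pow_mul,
        show (c ^ orderOf (x * θ x⁻¹) : G) = 1 from Subtype.ext (by
          simpa [c, sθ, gx] using pow_orderOf_eq_one (x * θ x⁻¹)), one_pow, map_one]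
  obtain ⟨m, hm⟩ := exists_pow_eq_self_of_coprime
    (((hA.cop.coprime_dvd_left (orderOf_dvd_natCard (c : H))).coprime_dvd_right
      (show 3 ∣ 6 by norm_num)).symm)
  have hc1 : r c = 1 := by
    rw [show c = (c ^ 3) ^ m from Subtype.ext (by simpa using hm.symm), map_pow, hpow, one_pow]
  have := congrArg Subtype.val (LinearMap.congr_fun hc1 ⟨v, hv⟩)
  simpa [r, eigRep_apply, c, sθ, gx] using this

end IsFpfS3

end Cfsg.Agent.H90
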