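import Cfsg.Agent.H90.FrobeniusModule
import Cfsg.Agent.H21.FrobeniusStructure

/-! Fixed-point-free representations lift to every prime not dividing the group order. -/

set_option autoImplicit false
open scoped Kronecker IsMulCommutative

namespace Cfsg.Agent.H90

open Cfsg.Agent.H21 in
/-- A fixed-point-free action gives a fixed-point-free representation modulo a prime. -/
theorem exists_isMatFPF_of_fpf {A K : Type*} [Group A] [Finite A] [Nontrivial A] [Group K] [Finite K]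
    [Nontrivial K] (ψ : A →* MulAut K) (hfpf : ∀ e : A, e ≠ 1 → ∀ x : K, ψ e x = x → x = 1) :
    ∃ r : ℕ, r.Prime ∧ ¬ r ∣ Nat.card A ∧ IsMatFPF A (ZMod r) := by
  classical
  have := isNilpotent_of_fpf_group ψ hfpf
  obtain ⟨hC, χ, hχ⟩ := center_fpf ψ hfpf
  obtain ⟨r, hr, hrdvd⟩ := Nat.exists_prime_and_dvd (Finite.one_lt_card (α := Subgroup.center K)).ne'
  have := Fact.mk hr
  let W : Subgroup (Subgroup.center K) :=
    { carrier := {v | v ^ r = 1}
      one_mem' := one_pow r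
      mul_mem' := fun {a b} (ha : a ^ r = 1) (hb : b ^ r = 1) =>
        show (a * b) ^ r = 1 by rw [mul_pow, ha, hb, one_mul]
      inv_mem' := fun {a} (ha : a ^ r = 1) => show a⁻¹ ^ r = 1 by rw [inv_pow, ha, inv_one] }
  have hW : ∀ e : A, ∀ v ∈ W, χ e v ∈ W := fun e v (hv : v ^ r = 1) =>
    show (χ e v) ^ r = 1 by rw [← map_pow, hv, map_one]
  obtain ⟨w, hw⟩ := exists_prime_orderOf_dvd_card' (G := Subgroup.center K) r hrdvd
  have hwW : w ∈ W := show w ^ r = 1 from hw ▸ pow_orderOf_eq_one w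
  have : Nontrivial (Additive W) := ⟨⟨Additive.ofMul (⟨w, hwW⟩ : W), 0, fun e =>
    hr.ne_one (by rw [← hw, show w = 1 from
      congrArg (fun a : Additive W => (a.toMul : Subgroup.center K)) e, orderOf_one])⟩⟩
  let χ' := restrictAut χ W hW
  have hχ' : ∀ e : A, e ≠ 1 → ∀ v : W, χ' e v = v → v = 1 := fun e he v hv =>
    Subtype.ext (hχ e he _ (congrArg Subtype.val hv))
  have hrA : ¬ r ∣ Nat.card A := by
    intro hd
    obtain ⟨a, ha⟩ := exists_prime_orderOf_dvd_card' (G := A) r hd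
    refine not_dvd_card_of_fpf χ' ha (hχ' a fun e => hr.ne_one (by rw [← ha, e, orderOf_one])) ?_
    have := orderOf_dvd_natCard (⟨w, hwW⟩ : W)
    rwa [← Subgroup.orderOf_coe, hw] at this
  have hmod : Module (ZMod r) (Additive W) := AddCommGroup.zmodModule (n := r) fun x => by
    apply Additive.toMul.injective
    rw [toMul_nsmul, toMul_zero]
    exact Subtype.ext x.toMul.2
  let ρ₀ : A →* Module.End (ZMod r) (Additive W) :=
    { toFun := fun g => AddMonoidHom.toZModLinearMap r (MonoidHom.toAdditive (χ' g).toMonoidHom)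
      map_one' := by ext v; simp
      map_mul' := fun a b => by ext v; simp }
  have h₀ : ∀ g : A, g ≠ 1 → IsUnit (ρ₀ g - 1) := fun g hg => by
    rw [LinearMap.isUnit_iff_ker_eq_bot, LinearMap.ker_eq_bot']
    intro v hv
    rw [LinearMap.sub_apply, sub_eq_zero, Module.End.one_apply] at hv
    exact Additive.toMul.injective (hχ' g hg _ (congrArg Additive.toMul hv))
  let b := Module.finBasis (ZMod r) (Additive W)
  refine ⟨r, hr, hrA, _, (LinearMap.toMatrixAlgEquiv b).toRingEquiv.toMonoidHom.comp ρ₀,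
    Module.finrank_pos, fun p a hp ha => ?_⟩
  have h := (h₀ a fun e => hp.ne_one (by rw [← ha, e, orderOf_one])).map (LinearMap.toMatrixAlgEquiv b)
  rwa [map_sub, map_one] at h

variable {r : ℕ} [hr : Fact r.Prime]

theorem isUnit_castHom_iff (k : ℕ) (x : ZMod (r ^ (k + 1))) :
    IsUnit (ZMod.castHom (dvd_pow_self r k.succ_ne_zero) (ZMod r) x) ↔ IsUnit x := by
  haveI : NeZero (r ^ (k + 1)) := ⟨(Nat.pow_pos hr.out.pos).ne'⟩
  conv_lhs => rw [← ZMod.natCast_zmod_val x, map_natCast]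
  conv_rhs => rw [← ZMod.natCast_zmod_val x]
  rw [ZMod.isUnit_iff_coprime, ZMod.isUnit_iff_coprime, Nat.coprime_pow_right_iff k.succ_pos]

theorem isUnit_mapMatrix_iff {n : ℕ} (k : ℕ) (M : Matrix (Fin n) (Fin n) (ZMod (r ^ (k + 1)))) :
    IsUnit ((ZMod.castHom (dvd_pow_self r k.succ_ne_zero) (ZMod r)).mapMatrix M) ↔ IsUnit M := by
  rw [Matrix.isUnit_iff_isUnit_det, Matrix.isUnit_iff_isUnit_det, ← RingHom.map_det,
    isUnit_castHom_iff]

omit hr in
/-- An element congruent to one modulo `r` has order a power of `r`. -/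
theorem exists_pow_pow_sub_one {R : Type*} [Ring R] {g Y : R} (h : g - 1 = (r : R) * Y) :
    ∀ j : ℕ, ∃ Z : R, g ^ r ^ j - 1 = (r : R) ^ (j + 1) * Z := by
  intro j
  induction j with
  | zero => exact ⟨Y, by simpa using h⟩
  | succ j ih =>
    obtain ⟨Z, hZ⟩ := ih
    set u := g ^ r ^ j with hu
    have h1 : g ^ r ^ (j + 1) - 1 = (u - 1) * ∑ i ∈ Finset.range r, u ^ i := by
      rw [mul_geom_sum, hu, ← pow_mul, pow_succ]
    have h2 : ∑ i ∈ Finset.range r, u ^ i =
        (r : R) * (1 + (r : R) ^ j * Z * ∑ i ∈ Finset.range r, ∑ l ∈ Finset.range i, u ^ l) := by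
      have : ∀ i, u ^ i = 1 + (u - 1) * ∑ l ∈ Finset.range i, u ^ l := fun i => by
        rw [mul_geom_sum]; abel
      rw [Finset.sum_congr rfl fun i _ => this i, Finset.sum_add_distrib, ← Finset.mul_sum, hZ,
        Finset.sum_const, Finset.card_range, nsmul_one, mul_add, mul_one, pow_succ',
        mul_assoc (r : R), mul_assoc (r : R)]
    refine ⟨Z * (1 + (r : R) ^ j * Z * ∑ i ∈ Finset.range r, ∑ l ∈ Finset.range i, u ^ l), ?_⟩
    rw [h1, h2, hZ, pow_succ _ (j + 1), mul_assoc, ← mul_assoc Z, ← (Nat.cast_commute r Z).eq]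
    simp only [mul_assoc]

/-- Lifting of a coprime representation. -/
theorem exists_lift {A : Type*} [Group A] [Finite A] (hA : ¬ r ∣ Nat.card A) {n : ℕ}
    (ρ : A →* Matrix (Fin n) (Fin n) (ZMod r)) (k : ℕ) :
    ∃ σ : A →* Matrix (Fin n) (Fin n) (ZMod (r ^ (k + 1))),
      ∀ a, (ZMod.castHom (dvd_pow_self r k.succ_ne_zero) (ZMod r)).mapMatrix (σ a) = ρ a := by
  classical
  haveI : NeZero (r ^ (k + 1)) := ⟨(Nat.pow_pos hr.out.pos).ne'⟩
  set f := (ZMod.castHom (dvd_pow_self r k.succ_ne_zero) (ZMod r)).mapMatrix (m := Fin n) with hf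
  let M := Matrix (Fin n) (Fin n) (ZMod (r ^ (k + 1)))
  let P : Subgroup (Mˣ × A) :=
    { carrier := {x | f x.1 = ρ x.2}
      one_mem' := by simp
      mul_mem' := fun {x y} (hx : f x.1 = ρ x.2) (hy : f y.1 = ρ y.2) => by
        show f (x.1 * y.1 : Mˣ) = ρ (x.2 * y.2)
        rw [Units.val_mul, map_mul, map_mul, hx, hy]
      inv_mem' := fun {x} (hx : f x.1 = ρ x.2) => by
        show f (x.1⁻¹ : Mˣ) = ρ x.2⁻¹
        have h1 : f (x.1⁻¹ : Mˣ) * f x.1 = 1 := by rw [← map_mul, Units.inv_mul, map_one]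
        have h2 : f x.1 * ρ x.2⁻¹ = 1 := by rw [hx, ← map_mul, mul_inv_cancel, map_one]
        exact left_inv_eq_right_inv h1 h2 }
  let π : P →* A := (MonoidHom.snd Mˣ A).comp P.subtype
  have hsurj : Function.Surjective π := by
    intro a
    let L : M := Matrix.of fun i j => ((ρ a i j).val : ZMod (r ^ (k + 1)))
    have hL : f L = ρ a := by
      ext i j
      simp [f, L]
    have hu : IsUnit L := by
      rw [← isUnit_mapMatrix_iff, ← hf, hL]
      exact (Group.isUnit a).map ρ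
    exact ⟨⟨(hu.unit, a), hL⟩, rfl⟩
  have hN : IsPGroup r π.ker := by
    rintro ⟨⟨⟨g, a⟩, hg⟩, ha⟩
    change a = 1 at ha
    subst ha
    change f g = ρ 1 at hg
    rw [map_one] at hg
    have hY : ∀ i j, ∃ y : ZMod (r ^ (k + 1)), ((g : M) - 1) i j = (r : ZMod (r ^ (k + 1))) * y := by
      intro i j
      have h0 : f ((g : M) - 1) = 0 := by rw [map_sub, hg, map_one, sub_self]
      have h1 : ZMod.castHom (dvd_pow_self r k.succ_ne_zero) (ZMod r) (((g : M) - 1) i j) = 0 :=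
        congrFun (congrFun h0 i) j
      rw [← ZMod.natCast_zmod_val (((g : M) - 1) i j), map_natCast, ZMod.natCast_eq_zero_iff] at h1
      obtain ⟨c, hc⟩ := h1
      exact ⟨c, by rw [← Nat.cast_mul, ← hc, ZMod.natCast_zmod_val]⟩
    choose Y hY using hY
    have hgY : (g : M) - 1 = (r : M) * Matrix.of Y := by
      ext i j
      rw [← nsmul_eq_mul, Matrix.smul_apply, Matrix.of_apply, hY, nsmul_eq_mul]
    obtain ⟨Z, hZ⟩ := exists_pow_pow_sub_one hgY k
    have hr0 : ((r : M)) ^ (k + 1) = 0 := by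
      rw [← Nat.cast_pow, ← map_natCast (algebraMap (ZMod (r ^ (k + 1))) M), ZMod.natCast_self, map_zero]
    refine ⟨k, Subtype.ext (Subtype.ext (Prod.ext ?_ ?_))⟩
    · refine Units.ext ?_
      change (g : M) ^ r ^ k = 1
      rw [← sub_eq_zero, hZ, hr0, zero_mul]
    · exact one_pow _
  obtain ⟨m, hm⟩ := IsPGroup.iff_card.mp hN
  have hidx : π.ker.index = Nat.card A := by
    rw [Subgroup.index_ker, MonoidHom.range_eq_top.mpr hsurj, Subgroup.card_top]
  obtain ⟨C, hC⟩ := Subgroup.exists_right_complement'_of_coprime (N := π.ker) (by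
    rw [hm, hidx]
    exact (hr.out.coprime_iff_not_dvd.mpr hA).pow_left m)
  have hbij : Function.Bijective (π.comp C.subtype) := by
    refine ⟨(injective_iff_map_eq_one _).2 fun x hx => Subtype.ext
      (Subgroup.mem_bot.mp (hC.disjoint.le_bot ⟨hx, x.2⟩)), fun a => ?_⟩
    obtain ⟨x, rfl⟩ := hsurj a
    obtain ⟨⟨n', c⟩, hnc⟩ := hC.2 x
    refine ⟨c, ?_⟩
    rw [← hnc, map_mul, MonoidHom.mem_ker.mp n'.2, one_mul]
    rfl
  let e := MulEquiv.ofBijective _ hbij
  refine ⟨(Units.coeHom M).comp ((MonoidHom.fst Mˣ A).comp (P.subtype.comp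
    (C.subtype.comp e.symm.toMonoidHom))), fun a => ?_⟩
  have h1 := ((e.symm a : C) : P).2
  have h2 : ((((e.symm a : C) : P) : Mˣ × A)).2 = a := e.apply_symm_apply a
  change f _ = ρ _ at h1
  rw [h2] at h1
  exact h1

/-- A coprime fixed-point-free representation modulo one prime yields one modulo every prime not
dividing the group order. -/
theorem isMatFPF_change {A : Type*} [Group A] [Finite A] (hA : ¬ r ∣ Nat.card A)
    (h : IsMatFPF A (ZMod r)) (s : ℕ) [Fact s.Prime] (hs : ¬ s ∣ Nat.card A) :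
    IsMatFPF A (ZMod s) := by
  classical
  obtain ⟨n, ρ, hn, hρ⟩ := h
  choose σ hσ using exists_lift hA ρ
  let R0 := ∀ k : ℕ, Matrix (Fin n) (Fin n) (ZMod (r ^ (k + 1)))
  let I : Ideal R0 :=
    { carrier := {x | ∃ m : ℕ, m ≠ 0 ∧ ∃ N, ∀ k, N ≤ k → m • x k = 0}
      add_mem' := fun {x y} ⟨m, hm, N, hx⟩ ⟨m', hm', N', hy⟩ =>
        ⟨m * m', mul_ne_zero hm hm', max N N', fun k hk => by
          rw [Pi.add_apply, smul_add, mul_comm, mul_smul, hx k (le_trans (le_max_left _ _) hk),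
            smul_zero, zero_add, mul_comm, mul_smul, hy k (le_trans (le_max_right _ _) hk), smul_zero]⟩
      zero_mem' := ⟨1, one_ne_zero, 0, fun k _ => (one_smul ℕ _).trans rfl⟩
      smul_mem' := fun c x ⟨m, hm, N, hx⟩ => ⟨m, hm, N, fun k hk => by
        rw [smul_eq_mul, Pi.mul_apply, ← mul_smul_comm, hx k hk, mul_zero]⟩ }
  haveI : I.IsTwoSided := ⟨fun {x} c ⟨m, hm, N, hx⟩ => ⟨m, hm, N, fun k hk => by
    rw [Pi.mul_apply, ← smul_mul_assoc, hx k hk, zero_mul]⟩⟩
  let R := R0 ⧸ I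
  haveI : Nontrivial R := by
    refine Ideal.Quotient.nontrivial_iff.mpr fun e => ?_
    have h1 : (1 : R0) ∈ I := e ▸ Submodule.mem_top
    obtain ⟨m, hm, N, hx⟩ := h1
    haveI : Nonempty (Fin n) := ⟨⟨0, hn⟩⟩
    have h2 := congrFun (congrFun (hx (N + m) (Nat.le_add_right _ _)) ⟨0, hn⟩) ⟨0, hn⟩
    rw [Pi.one_apply, Matrix.smul_apply, Matrix.one_apply_eq, nsmul_one, Matrix.zero_apply,
      ZMod.natCast_eq_zero_iff] at h2
    have h3 := Nat.le_of_dvd (Nat.pos_of_ne_zero hm) h2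
    have h4 : N + m + 1 < r ^ (N + m + 1) := Nat.lt_pow_self hr.out.one_lt
    omega
  haveI : IsAddTorsionFree R := ⟨fun m hm x y hxy => by
    obtain ⟨x, rfl⟩ := Ideal.Quotient.mk_surjective x
    obtain ⟨y, rfl⟩ := Ideal.Quotient.mk_surjective y
    simp only at hxy
    rw [← map_nsmul, ← map_nsmul, Ideal.Quotient.eq] at hxy
    obtain ⟨m', hm', N, hN⟩ := hxy
    rw [Ideal.Quotient.eq]
    refine ⟨m' * m, mul_ne_zero hm' hm, N, fun k hk => ?_⟩
    rw [mul_smul, Pi.sub_apply, smul_sub]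
    have := hN k hk
    rwa [Pi.sub_apply, Pi.smul_apply, Pi.smul_apply] at this⟩
  let g : A →* R0 :=
    { toFun := fun a k => σ k a
      map_one' := funext fun k => map_one (σ k)
      map_mul' := fun a b => funext fun k => map_mul (σ k) a b }
  refine isMatFPF_of_torsionFree ((Ideal.Quotient.mk I).toMonoidHom.comp g) (fun p a hp ha => ?_) s hs
  have h0 : (∑ i ∈ Finset.range p, g a ^ i : R0) = 0 := funext fun k => by
    rw [Finset.sum_apply]
    change ∑ i ∈ Finset.range p, (σ k a) ^ i = 0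
    have hu : IsUnit (σ k a - 1) := by
      rw [← isUnit_mapMatrix_iff, map_sub, map_one, hσ]
      exact hρ p a hp ha
    refine hu.mul_right_eq_zero.mp ?_
    rw [mul_geom_sum, ← map_pow, ← ha, pow_orderOf_eq_one, map_one,
      sub_self]
  have := congrArg (Ideal.Quotient.mk I) h0
  rw [map_sum, map_zero] at this
  simp only [map_pow] at this
  exact this

/-- The tensor product of coprime fixed-point-free representations. -/
theorem isMatFPF_prod {A B : Type*} [Group A] [Finite A] [Group B] [Finite B]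
    (hAB : (Nat.card A).Coprime (Nat.card B)) {K : Type*} [CommRing K]
    (hA : IsMatFPF A K) (hB : IsMatFPF B K) : IsMatFPF (A × B) K := by
  classical
  obtain ⟨n, ρ, hn, hρ⟩ := hA
  obtain ⟨m, τ, hm, hτ⟩ := hB
  let kr : A × B →* Matrix (Fin n × Fin m) (Fin n × Fin m) K :=
    { toFun := fun x => ρ x.1 ⊗ₖ τ x.2
      map_one' := by simp
      map_mul' := fun x y => by
        rw [Prod.fst_mul, Prod.snd_mul, map_mul, map_mul, Matrix.mul_kronecker_mul] }
  let e := Matrix.reindexAlgEquiv K K (finProdFinEquiv : Fin n × Fin m ≃ Fin (n * m))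
  refine ⟨n * m, e.toRingEquiv.toMonoidHom.comp kr, Nat.mul_pos hn hm, fun p x hp hx => ?_⟩
  suffices hk : IsUnit (kr x - 1) by
    have := hk.map e
    rwa [map_sub, map_one] at this
  have hd : orderOf x.1 ∣ p ∧ orderOf x.2 ∣ p :=
    ⟨hx ▸ orderOf_map_dvd (MonoidHom.fst A B) x, hx ▸ orderOf_map_dvd (MonoidHom.snd A B) x⟩
  obtain ⟨a, b⟩ := x
  change IsUnit (ρ a ⊗ₖ τ b - 1)
  rcases (Nat.dvd_prime hp).mp hd.1 with ea | ea <;> rcases (Nat.dvd_prime hp).mp hd.2 with eb | eb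
  · rw [show ((a, b) : A × B) = 1 from Prod.ext (orderOf_eq_one_iff.mp ea) (orderOf_eq_one_iff.mp eb),
      orderOf_one] at hx
    exact absurd hx.symm hp.ne_one
  · rw [show a = 1 from orderOf_eq_one_iff.mp ea, map_one]
    obtain ⟨U, hU⟩ := hτ p b hp eb
    refine ⟨⟨(1 : Matrix (Fin n) (Fin n) K) ⊗ₖ (U : Matrix (Fin m) (Fin m) K), 1 ⊗ₖ ((U⁻¹ : _ˣ) : Matrix (Fin m) (Fin m) K),
      by rw [← Matrix.mul_kronecker_mul, one_mul, Units.mul_inv, Matrix.one_kronecker_one],
      by rw [← Matrix.mul_kronecker_mul, one_mul, Units.inv_mul, Matrix.one_kronecker_one]⟩, ?_⟩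
    change (1 : Matrix (Fin n) (Fin n) K) ⊗ₖ (U : Matrix (Fin m) (Fin m) K) = _
    rw [hU, eq_sub_iff_add_eq]
    rw [show (1 : Matrix (Fin n × Fin m) (Fin n × Fin m) K) =
      (1 : Matrix (Fin n) (Fin n) K) ⊗ₖ (1 : Matrix (Fin m) (Fin m) K) from Matrix.one_kronecker_one.symm]
    rw [← Matrix.kronecker_add, sub_add_cancel]
  · rw [show b = 1 from orderOf_eq_one_iff.mp eb, map_one]
    obtain ⟨U, hU⟩ := hρ p a hp ea
    refine ⟨⟨(U : Matrix (Fin n) (Fin n) K) ⊗ₖ (1 : Matrix (Fin m) (Fin m) K), ((U⁻¹ : _ˣ) : Matrix (Fin n) (Fin n) K) ⊗ₖ 1,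
      by rw [← Matrix.mul_kronecker_mul, one_mul, Units.mul_inv, Matrix.one_kronecker_one],
      by rw [← Matrix.mul_kronecker_mul, one_mul, Units.inv_mul, Matrix.one_kronecker_one]⟩, ?_⟩
    change (U : Matrix (Fin n) (Fin n) K) ⊗ₖ (1 : Matrix (Fin m) (Fin m) K) = _
    rw [hU, eq_sub_iff_add_eq]
    rw [show (1 : Matrix (Fin n × Fin m) (Fin n × Fin m) K) =
      (1 : Matrix (Fin n) (Fin n) K) ⊗ₖ (1 : Matrix (Fin m) (Fin m) K) from Matrix.one_kronecker_one.symm]
    rw [← Matrix.add_kronecker, sub_add_cancel]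
  · exact absurd (Nat.eq_one_of_dvd_coprimes hAB (ea ▸ orderOf_dvd_natCard a)
      (eb ▸ orderOf_dvd_natCard b)) hp.ne_one

end Cfsg.Agent.H90
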