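import Cfsg.Agent.H90.FrobeniusModule
import Cfsg.Agent.H49.Homs

set_option autoImplicit false

namespace Cfsg.Agent.H90

/-- A subgroup of `SL(2,F)` of order prime to the characteristic is fixed-point-free on `F²`. -/
theorem isUnit_sub_one_of_SL2 {A : Type*} [Group A] [Finite A] {F : Type*} [Field F]
    (f : A →* Matrix.SpecialLinearGroup (Fin 2) F) (hf : Function.Injective f)
    (hcard : ∀ p : ℕ, p.Prime → p ∣ Nat.card A → (p : F) ≠ 0) :
    ∀ (p : ℕ) (a : A), p.Prime → orderOf a = p →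
      IsUnit (((Units.coeHom _).comp (Matrix.SpecialLinearGroup.toGL.comp f)) a - 1) := by
  intro p a hp ha
  set M : Matrix (Fin 2) (Fin 2) F := (f a : Matrix.SpecialLinearGroup (Fin 2) F).1 with hM
  change IsUnit (M - 1)
  rw [Matrix.isUnit_iff_isUnit_det, isUnit_iff_ne_zero]
  intro hdet
  have hd : M.det = 1 := (f a).2
  rw [Matrix.det_fin_two] at hdet hd
  simp [Matrix.one_apply] at hdet
  have htr : M 1 1 = 2 - M 0 0 := by linear_combination hd - hdet
  set N := M - 1 with hN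
  have hN2 : N * N = 0 := by
    ext i j
    fin_cases i <;> fin_cases j <;>
      simp [hN, Matrix.mul_apply, Fin.sum_univ_two, Matrix.one_apply, htr] <;>
      grind
  have hpow : ∀ k : ℕ, M ^ k = 1 + (k : F) • N := by
    intro k
    induction k with
    | zero => simp
    | succ k ih =>
      have hM' : M = 1 + N := by simp [hN]
      rw [pow_succ, ih]
      conv_lhs => rw [hM']
      simp only [add_mul, mul_add, one_mul, mul_one, smul_mul_assoc, hN2, smul_zero, Nat.cast_succ,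
        add_smul, one_smul, add_zero]
      abel
  have h1 : M ^ p = 1 := by
    have : f a ^ p = 1 := by rw [← map_pow, ← ha, pow_orderOf_eq_one, map_one]
    exact congrArg Subtype.val this
  rw [hpow, add_eq_left, smul_eq_zero, or_iff_right (hcard p hp (ha ▸ orderOf_dvd_natCard a))] at h1
  rw [hN, sub_eq_zero] at h1
  have : f a = 1 := Subtype.ext h1
  rw [map_eq_one_iff f hf] at this
  rw [this, orderOf_one] at ha
  exact hp.ne_one ha.symm

/-- A subgroup of `SL(2,F)` of order prime to the characteristic has a fixed-point-free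
matrix representation. -/
theorem isMatFPF_of_SL2 {A : Type*} [Group A] [Finite A] {F : Type*} [Field F]
    (f : A →* Matrix.SpecialLinearGroup (Fin 2) F) (hf : Function.Injective f)
    (hcard : ∀ p : ℕ, p.Prime → p ∣ Nat.card A → (p : F) ≠ 0) : IsMatFPF A F :=
  ⟨2, (Units.coeHom _).comp (Matrix.SpecialLinearGroup.toGL.comp f), two_pos,
    isUnit_sub_one_of_SL2 f hf hcard⟩

/-- For every `n ≥ 1` the dicyclic group embeds in some `SL(2,p)` with `p` prime to its order. -/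
theorem exists_isMatFPF_quaternion (n : ℕ) (hn : 1 ≤ n) :
    ∃ p : ℕ, p.Prime ∧ IsMatFPF (QuaternionGroup n) (ZMod p) := by
  haveI : NeZero n := ⟨by omega⟩
  obtain ⟨p, hp, hpn, hmod⟩ := Nat.exists_prime_gt_modEq_one (4 * n) (show 2 * n ≠ 0 by omega)
  haveI : Fact p.Prime := ⟨hp⟩
  refine ⟨p, hp, ?_⟩
  have hdvd : 2 * n ∣ Nat.card (ZMod p)ˣ := by
    rw [Nat.card_eq_fintype_card, ZMod.card_units p]
    exact (Nat.modEq_iff_dvd' hp.one_le).1 hmod.symm
  obtain ⟨z, hz⟩ := IsCyclic.exists_ofOrder_eq_natCard (α := (ZMod p)ˣ)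
  set ζ := z ^ (Nat.card (ZMod p)ˣ / (2 * n)) with hζdef
  have hζ : orderOf ζ = 2 * n := by
    rw [hζdef, ← hz]
    exact orderOf_pow_orderOf_div (orderOf_pos z).ne' (hz ▸ hdvd)
  let d : (ZMod p)ˣ →* Matrix.SpecialLinearGroup (Fin 2) (ZMod p) :=
    { toFun := fun u => ⟨!![(u : ZMod p), 0; 0, ((u⁻¹ : (ZMod p)ˣ) : ZMod p)], by
        rw [Matrix.det_fin_two_of, mul_zero, sub_zero, Units.mul_inv]⟩
      map_one' := Subtype.ext (show !![((1 : (ZMod p)ˣ) : ZMod p), 0; 0, (((1 : (ZMod p)ˣ))⁻¹ : (ZMod p)ˣ)] = 1 by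
        rw [inv_one, Units.val_one, Matrix.one_fin_two])
      map_mul' := fun u v => Subtype.ext (show !![((u * v : (ZMod p)ˣ) : ZMod p), 0; 0, ((u * v)⁻¹ : (ZMod p)ˣ)] =
          !![(u : ZMod p), 0; 0, (u⁻¹ : (ZMod p)ˣ)] * !![(v : ZMod p), 0; 0, (v⁻¹ : (ZMod p)ˣ)] by
        rw [Matrix.mul_fin_two, mul_inv, Units.val_mul, Units.val_mul]
        simp only [mul_zero, zero_mul, add_zero, zero_add]) }
  have hd : Function.Injective d := fun u v h =>
    Units.ext (congrFun (congrFun (congrArg Subtype.val h) 0) 0)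
  set A := d ζ with hA
  let B : Matrix.SpecialLinearGroup (Fin 2) (ZMod p) :=
    ⟨!![0, 1; -1, 0], by rw [Matrix.det_fin_two_of]; ring⟩
  have hζn : (ζ : ZMod p) ^ n = -1 := by
    have h2 : ((ζ : ZMod p) ^ n) ^ 2 = 1 := by
      rw [← pow_mul, mul_comm, ← hζ, ← Units.val_pow_eq_pow_val, pow_orderOf_eq_one, Units.val_one]
    rcases sq_eq_one_iff.1 h2 with h | h
    · exfalso
      have h' : ζ ^ n = 1 := Units.ext (by simpa using h)
      have := Nat.le_of_dvd (by omega) (hζ ▸ orderOf_dvd_of_pow_eq_one h')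
      omega
    · exact h
  have hoA : orderOf A = 2 * n := by rw [hA, orderOf_injective d hd, hζ]
  have hAn : A ^ n = d (ζ ^ n) := (map_pow d ζ n).symm
  have hBB : B * B = A ^ n := by
    rw [hAn]
    have hi : (((ζ ^ n)⁻¹ : (ZMod p)ˣ) : ZMod p) = -1 := by
      rw [show ζ ^ n = -1 from Units.ext (by simpa using hζn)]; simp
    have hv : ((ζ ^ n : (ZMod p)ˣ) : ZMod p) = -1 := by simpa using hζn
    apply Subtype.ext
    change !![(0 : ZMod p), 1; -1, 0] * !![0, 1; -1, 0] =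
      !![((ζ ^ n : (ZMod p)ˣ) : ZMod p), 0; 0, ((ζ ^ n)⁻¹ : (ZMod p)ˣ)]
    rw [hi, hv, Matrix.mul_fin_two]
    simp only [mul_zero, zero_mul, add_zero, zero_add, one_mul, mul_one]
  have hBA : B * A * B⁻¹ = A⁻¹ := by
    rw [mul_inv_eq_iff_eq_mul, hA, ← map_inv]
    apply Subtype.ext
    change !![(0 : ZMod p), 1; -1, 0] * !![((ζ : (ZMod p)ˣ) : ZMod p), 0; 0, (ζ⁻¹ : (ZMod p)ˣ)] =
      !![((ζ⁻¹ : (ZMod p)ˣ) : ZMod p), 0; 0, ((ζ⁻¹)⁻¹ : (ZMod p)ˣ)] * !![0, 1; -1, 0]
    rw [inv_inv, Matrix.mul_fin_two, Matrix.mul_fin_two]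
    simp only [mul_zero, zero_mul, add_zero, zero_add, one_mul, mul_one, neg_mul, mul_neg, neg_zero]
  have hBn : B ∉ Subgroup.zpowers A := by
    intro h
    rw [hA, ← MonoidHom.map_zpowers] at h
    obtain ⟨u, -, hu⟩ := h
    have := congrFun (congrFun (congrArg Subtype.val hu) 0) 1
    exact zero_ne_one (show (0 : ZMod p) = 1 from this)
  refine isMatFPF_of_SL2 _ (Cfsg.Agent.H49.quatHom_injective hoA hBB hBA hBn) fun q hq hqd h0 => ?_
  rw [ZMod.natCast_eq_zero_iff] at h0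
  rw [Nat.card_eq_fintype_card, QuaternionGroup.card] at hqd
  have h1 := Nat.le_of_dvd (by omega) hqd
  have h2 := Nat.le_of_dvd hq.pos h0
  omega

end Cfsg.Agent.H90
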