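import Cfsg.Agent.H90.TwistedDesign

set_option autoImplicit false
open Pointwise

namespace Cfsg.Agent.H90

variable {G : Type*} [Group G] (Ω : Type*) [MulAction G Ω]

/-- The automorphisms induced by a permutation of the set acted on. -/
def inducedAut : Subgroup (MulAut G) where
  carrier := {α | ∃ σ : Equiv.Perm Ω, ∀ g : G, ∀ x : Ω, α g • σ x = σ (g • x)}
  one_mem' := ⟨1, fun _ _ => rfl⟩
  mul_mem' := fun {α β} ⟨σ, hσ⟩ ⟨τ, hτ⟩ => ⟨σ * τ, fun g x => by
    simp [MulAut.mul_apply, hσ, hτ]⟩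
  inv_mem' := fun {α} ⟨σ, hσ⟩ => ⟨σ⁻¹, fun g x => σ.injective (by
    rw [← hσ, ← MulAut.mul_apply, mul_inv_cancel, MulAut.one_apply]; simp)⟩

/-- Inner automorphisms are induced by permutations. -/
theorem conj_mem_inducedAut (g : G) : MulAut.conj g ∈ inducedAut (G := G) Ω :=
  ⟨MulAction.toPerm g, fun h x => by simp [MulAut.conj_apply, mul_smul]⟩

/-- In prime degree `p` with `p² ∤ |G|`, commutators of permutation-induced automorphisms are inner. -/
theorem commutator_inducedAut_mem [Finite G] [Fintype Ω] [FaithfulSMul G Ω]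
    [MulAction.IsPretransitive G Ω] {p : ℕ} [hp : Fact p.Prime] (hΩ : Fintype.card Ω = p)
    (hp2 : ¬ p ^ 2 ∣ Nat.card G) {α β : MulAut G} (hα : α ∈ inducedAut Ω)
    (hβ : β ∈ inducedAut Ω) :
    α * β * α⁻¹ * β⁻¹ ∈ (MulAut.conj : G →* MulAut G).range := by
  obtain ⟨x₀⟩ : Nonempty Ω := Fintype.card_pos_iff.1 (hΩ ▸ hp.out.pos)
  have hst : Nat.card (MulAction.stabilizer G x₀) * p = Nat.card G := by
    have h1 := MulAction.index_stabilizer_of_transitive G x₀
    rw [Nat.card_eq_fintype_card, hΩ] at h1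
    rw [← (MulAction.stabilizer G x₀).card_mul_index, h1]
  obtain ⟨c, hc⟩ := exists_prime_orderOf_dvd_card' (G := G) p ⟨_, by rw [mul_comm]; exact hst.symm⟩
  have hcfix : ∀ x : Ω, c • x ≠ x := by
    intro x hx
    obtain ⟨g, rfl⟩ := MulAction.exists_smul_eq G x₀ x
    have h1 : g⁻¹ * c * g ∈ MulAction.stabilizer G x₀ := by
      rw [MulAction.mem_stabilizer_iff, mul_smul, mul_smul, hx, inv_smul_smul]
    have h2 := Subgroup.orderOf_dvd_natCard _ h1
    have h3 : orderOf (g⁻¹ * c * g) = p := by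
      rw [show g⁻¹ * c * g = MulAut.conj g⁻¹ c from by simp [MulAut.conj_apply],
        MulEquiv.orderOf_eq, hc]
    rw [h3] at h2
    exact hp2 (by rw [← hst, sq]; exact Nat.mul_dvd_mul_right h2 p)
  have htrans : ∀ x : Ω, ∃ j : ℤ, c ^ j • x₀ = x := by
    have hd : (MulAction.orbit (Subgroup.zpowers c) x₀).ncard ∣ p := by
      rw [← MulAction.index_stabilizer, ← hc, ← Nat.card_zpowers]
      exact Subgroup.index_dvd_card _
    rcases (Nat.dvd_prime hp.out).1 hd with h | h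
    · exfalso
      obtain ⟨y, hy⟩ := Set.ncard_eq_one.1 h
      have h1 : x₀ = y := hy.subset (MulAction.mem_orbit_self x₀)
      have h2 : c • x₀ = y :=
        hy.subset ⟨⟨c, Subgroup.mem_zpowers c⟩, rfl⟩
      exact hcfix x₀ (h2.trans h1.symm)
    · intro x
      have : MulAction.orbit (Subgroup.zpowers c) x₀ = Set.univ :=
        Set.eq_of_subset_of_ncard_le (Set.subset_univ _)
          (by rw [h, Set.ncard_univ, Nat.card_eq_fintype_card, hΩ]) (Set.toFinite _)
      obtain ⟨⟨z, hz⟩, hzx⟩ : x ∈ MulAction.orbit (Subgroup.zpowers c) x₀ := this ▸ Set.mem_univ x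
      obtain ⟨j, rfl⟩ := Subgroup.mem_zpowers_iff.1 hz
      exact ⟨j, hzx⟩
  -- adjust so that `c` goes into its own cyclic group
  have adj : ∀ α ∈ inducedAut (G := G) Ω, ∃ g : G, ∃ α' ∈ inducedAut (G := G) Ω,
      α = MulAut.conj g * α' ∧ ∃ a : ℤ, α' c = c ^ a := by
    intro α hα
    have hcard : ∀ z : G, orderOf z = p → ∃ S : Sylow p G, (S : Subgroup G) = Subgroup.zpowers z := by
      intro z hz
      obtain ⟨S, hS⟩ := (IsPGroup.of_card (n := 1) (by rw [pow_one, Nat.card_zpowers, hz])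
        : IsPGroup p (Subgroup.zpowers z)).exists_le_sylow
      refine ⟨S, (Subgroup.eq_of_le_of_card_ge hS ?_).symm⟩
      rw [Nat.card_zpowers, hz]
      obtain ⟨k, hk⟩ := IsPGroup.iff_card.1 S.isPGroup'
      rw [hk]
      rcases Nat.lt_or_ge k 2 with hk2 | hk2
      · interval_cases k <;> simp [hp.out.pos, hp.out.one_le]
      · exact absurd ((pow_dvd_pow p hk2).trans (hk ▸ Subgroup.card_subgroup_dvd_card (S : Subgroup G))) hp2
    obtain ⟨S, hS⟩ := hcard c hc
    obtain ⟨T, hT⟩ := hcard (α c) (by rw [MulEquiv.orderOf_eq, hc])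
    obtain ⟨g, hg⟩ := MulAction.exists_smul_eq G S T
    refine ⟨g, (MulAut.conj g)⁻¹ * α,
      mul_mem (inv_mem (conj_mem_inducedAut Ω g)) hα, (mul_inv_cancel_left _ _).symm, ?_⟩
    have hm : α c ∈ ((g • S : Sylow p G) : Subgroup G) := by
      rw [hg, hT]; exact Subgroup.mem_zpowers _
    rw [Sylow.coe_subgroup_smul, hS, Subgroup.mem_pointwise_smul_iff_inv_smul_mem,
      Subgroup.mem_zpowers_iff] at hm
    obtain ⟨a, ha⟩ := hm
    exact ⟨a, ha.symm⟩
  obtain ⟨g, α', hα', rfl, a, ha⟩ := adj α hα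
  obtain ⟨h, β', hβ', rfl, b, hb⟩ := adj β hβ
  set N := (MulAut.conj : G →* MulAut G).range
  haveI hN : N.Normal := ⟨by
    rintro _ ⟨x, rfl⟩ φ
    exact ⟨φ x, by ext y; simp [MulAut.conj_apply]⟩⟩
  have key : α' * β' * α'⁻¹ * β'⁻¹ ∈ N := by
    have hfix : (α' * β' * α'⁻¹ * β'⁻¹) c = c := by
      have h1 : α' (β' c) = β' (α' c) := by
        rw [ha, hb, map_zpow, map_zpow, ha, hb, ← zpow_mul, ← zpow_mul, mul_comm]
      have h2 : (α' * β') c = (β' * α') c := h1
      have h4 : (α' * β' * α'⁻¹ * β'⁻¹) ((β' * α') c) = (α' * β') c := by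
        rw [← MulAut.mul_apply]; congr 1; group
      have hcz : ∃ e : ℤ, (β' * α') c = c ^ e := ⟨b * a, by
        rw [MulAut.mul_apply, ha, map_zpow, hb, ← zpow_mul]⟩
      obtain ⟨e, he⟩ := hcz
      -- the commutator fixes the generator `(β' α') c` of the cyclic group
      have h5 : (α' * β' * α'⁻¹ * β'⁻¹) ((β' * α') c) = (β' * α') c := h4.trans h2
      have h6 : Subgroup.zpowers ((β' * α') c) = Subgroup.zpowers c := by
        refine Subgroup.eq_of_le_of_card_ge ?_ ?_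
        · rw [Subgroup.zpowers_le, he]; exact Subgroup.zpow_mem _ (Subgroup.mem_zpowers c) e
        · rw [Nat.card_zpowers, Nat.card_zpowers, MulEquiv.orderOf_eq]
      obtain ⟨i, hi⟩ := Subgroup.mem_zpowers_iff.1 (h6.ge (Subgroup.mem_zpowers c))
      conv_lhs => rw [← hi]
      rw [map_zpow, h5, hi]
    obtain ⟨t, ht⟩ := mul_mem (mul_mem (mul_mem hα' hβ') (inv_mem hα')) (inv_mem hβ')
    obtain ⟨i, hi⟩ := htrans (t x₀)
    refine ⟨c ^ i, ?_⟩
    have htx : ∀ x, t x = c ^ i • x := by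
      intro x
      obtain ⟨j, rfl⟩ := htrans x
      rw [← ht, map_zpow, hfix, ← hi, smul_smul, smul_smul, ← zpow_add, ← zpow_add, add_comm]
    ext k
    refine eq_of_smul_eq_smul fun y : Ω => ?_
    obtain ⟨x, rfl⟩ := t.surjective y
    rw [ht, htx, htx, MulAut.conj_apply, mul_smul, mul_smul, inv_smul_smul]
  -- pass to the quotient by `N`
  have hq : ∀ z : G, (MulAut.conj z : MulAut G ⧸ N) = 1 :=
    fun z => (QuotientGroup.eq_one_iff _).2 ⟨z, rfl⟩
  rw [← QuotientGroup.eq_one_iff] at key ⊢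
  simpa [hq] using key

end Cfsg.Agent.H90
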