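import Cfsg.Agent.H90.SylowSmall
import Cfsg.Agent.H90.SylowBasic

set_option autoImplicit false
open Pointwise

namespace Cfsg.Agent.H90

universe u

/-- The sign of an involution moving exactly `2k` points. -/
theorem sign_of_sq_eq_one {α : Type*} [Fintype α] [DecidableEq α] (σ : Equiv.Perm α) (h : σ ^ 2 = 1)
    {k : ℕ} (hk : σ.support.card = 2 * k) : Equiv.Perm.sign σ = (-1) ^ k := by
  have hall : ∀ n ∈ σ.cycleType, n = 2 := by
    intro n hn
    have h1 := (Equiv.Perm.dvd_of_mem_cycleType hn).trans (orderOf_dvd_of_pow_eq_one h)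
    exact le_antisymm (Nat.le_of_dvd two_pos h1) (Equiv.Perm.two_le_of_mem_cycleType hn)
  have hrep := Multiset.eq_replicate_card.2 hall
  have hsum := Equiv.Perm.sum_cycleType σ
  rw [hrep, Multiset.sum_replicate, smul_eq_mul, hk] at hsum
  have hc : Multiset.card σ.cycleType = k := by omega
  rw [Equiv.Perm.sign_of_cycleType, hrep, Multiset.sum_replicate, Multiset.card_replicate, hc,
    smul_eq_mul, pow_add, pow_mul']
  simp

/-- Elements of order `n` counted through a family of cyclic subgroups of order `n`. -/
theorem mul_totient_le_card_orderOf {G : Type*} [Group G] [Finite G] {ι : Type*} [Finite ι]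
    (H : ι → Subgroup G) (hinj : Function.Injective H) (n : ℕ) (hcyc : ∀ i, IsCyclic (H i))
    (hcard : ∀ i, Nat.card (H i) = n) :
    Nat.card ι * n.totient ≤ Nat.card {g : G // orderOf g = n} := by
  classical
  let _ := Fintype.ofFinite ι
  have h1 : ∀ i, Nat.card {g : H i // orderOf g = n} = n.totient := by
    intro i
    haveI := hcyc i
    let _ := Fintype.ofFinite (H i)
    rw [Nat.card_eq_fintype_card, Fintype.card_subtype]
    exact IsCyclic.card_orderOf_eq_totient (by rw [← Nat.card_eq_fintype_card, hcard i])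
  have h2 : Nat.card (Σ i, {g : H i // orderOf g = n}) = Nat.card ι * n.totient := by
    rw [Nat.card_sigma, Finset.sum_congr rfl fun i _ => h1 i, Finset.sum_const, Finset.card_univ,
      smul_eq_mul, Nat.card_eq_fintype_card]
  rw [← h2]
  refine Nat.card_le_card_of_injective
    (fun x => (⟨(x.2.1 : G), (Subgroup.orderOf_coe x.2.1).trans x.2.2⟩ : {g : G // orderOf g = n}))
    ?_
  rintro ⟨i, g, hg⟩ ⟨j, g', hg'⟩ h
  have h' : (g : G) = (g' : G) := congrArg Subtype.val h
  have hz : ∀ (i : ι) (g : H i), orderOf g = n → Subgroup.zpowers (g : G) = H i := by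
    intro i g hg
    refine Subgroup.eq_of_le_of_card_ge (Subgroup.zpowers_le.2 g.2) ?_
    rw [Nat.card_zpowers, Subgroup.orderOf_coe, hg, hcard i]
  obtain rfl : i = j := hinj (by rw [← hz i g hg, ← hz j g' hg', h'])
  obtain rfl : g = g' := Subtype.ext h'
  rfl

/-- A minimal group with fifteen Sylow 7-subgroups does not exist. -/
theorem card_sylow_seven_ne_fifteen_step {G : Type u} [Group G] [Finite G]
    (ih : ∀ (H : Type u) [Group H] [Finite H], Nat.card H < Nat.card G → Nat.card (Sylow 7 H) ≠ 15)
    (hn : Nat.card (Sylow 7 G) = 15) : False := by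
  classical
  haveI h7 : Fact (Nat.Prime 7) := ⟨by norm_num⟩
  haveI h5 : Fact (Nat.Prime 5) := ⟨by norm_num⟩
  let _ : Fintype (Sylow 7 G) := Fintype.ofFinite _
  let _ : Fintype G := Fintype.ofFinite _
  set π := MulAction.toPermHom G (Sylow 7 G) with hπ
  have hfaith : π.ker = ⊥ := by
    by_contra hne
    refine ih (G ⧸ π.ker) ?_ ((card_sylow_eq_of_ker_le_normalizer
      (QuotientGroup.mk'_surjective π.ker) fun P => ?_).trans hn)
    · have h1 := π.ker.card_mul_index
      rw [← Subgroup.index_eq_card, ← h1]
      have h2 := (Subgroup.one_lt_card_iff_ne_bot π.ker).2 hne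
      have h3 : 0 < π.ker.index := Nat.pos_of_ne_zero Subgroup.index_ne_zero_of_finite
      nlinarith
    · rw [QuotientGroup.ker_mk']
      intro x hx
      exact Sylow.smul_eq_iff_mem_normalizer.1 (Equiv.congr_fun hx P)
  have hact : ∀ g : G, (∀ P : Sylow 7 G, g • P = P) → g = 1 := fun g hg => by
    rw [← Subgroup.mem_bot, ← hfaith, MonoidHom.mem_ker]
    exact Equiv.ext hg
  have hhom : ∀ f : G →* ℤˣ, ∀ g, f g = 1 := by
    intro f g
    by_contra hg
    have hidx : f.ker.index = 2 := by
      rw [Subgroup.index_ker]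
      have hle : Nat.card f.range ≤ 2 :=
        (Nat.card_le_card_of_injective _ Subtype.val_injective).trans
          (by rw [Nat.card_eq_fintype_card, Fintype.card_units_int])
      have h1 : 1 < Nat.card f.range := Subgroup.one_lt_card_iff_ne_bot _ |>.2 fun h =>
        hg (Subgroup.mem_bot.1 (h ▸ ⟨g, rfl⟩ : f g ∈ (⊥ : Subgroup ℤˣ)))
      omega
    refine ih f.ker ?_ ((card_sylow_normal_subgroup f.ker (by rw [hidx]; norm_num)).trans hn)
    have h1 := f.ker.card_mul_index
    rw [hidx] at h1
    have : 0 < Nat.card f.ker := Nat.card_pos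
    omega
  have hsign : ∀ g, Equiv.Perm.sign (π g) = 1 := hhom (Equiv.Perm.sign.comp π)
  have hO : Cfsg.pCore 7 G = ⊥ := by
    rw [Subgroup.eq_bot_iff_forall]
    exact fun g hg => hact g fun P => Sylow.smul_eq_iff_mem_normalizer.2
      (Subgroup.le_normalizer (pCore_le_sylow P hg))
  obtain ⟨P⟩ := Sylow.nonempty (p := 7) (G := G)
  have hP7 : ∀ S : Sylow 7 G, Nat.card S = 7 := by
    intro S
    refine (card_sylow_le_of_card_lt_sq (by rw [hn]; norm_num) hO S).resolve_left fun h => ?_
    have hbot : (S : Subgroup G) = ⊥ := Subgroup.card_eq_one.1 h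
    rw [S.card_eq_index_normalizer, Subgroup.index_eq_one.2 ?_] at hn
    · omega
    · rw [← Sylow.coe_coe, hbot]; exact Subgroup.normalizer_eq_top ..
  have h49 : ¬ 7 ^ 2 ∣ Nat.card G := fun hd => by
    have := P.pow_dvd_card_of_pow_dvd_card hd
    rw [hP7] at this
    norm_num at this
  -- only `7` divides the order of the centralizer of a Sylow subgroup
  have hcent : ∀ (S : Sylow 7 G) (q : ℕ), q.Prime →
      q ∣ Nat.card (Subgroup.centralizer ((S : Subgroup G) : Set G)) → q = 7 := by
    intro S q hq hqd
    haveI := Fact.mk hq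
    obtain ⟨z, hz⟩ := exists_prime_orderOf_dvd_card' _ hqd
    rw [← Subgroup.orderOf_coe] at hz
    by_contra hq7
    set F := MulAction.fixedPoints (Subgroup.zpowers (z : G)) (Sylow 7 G) with hFdef
    have hzq : IsPGroup q (Subgroup.zpowers (z : G)) :=
      IsPGroup.of_card (n := 1) (by rw [pow_one, Nat.card_zpowers, hz])
    have hm1 := hzq.card_modEq_card_fixedPoints (Sylow 7 G)
    have hSF : S ∈ F := by
      rintro ⟨x, hx⟩
      change x • S = S
      rw [Sylow.smul_eq_iff_mem_normalizer]
      exact Subgroup.centralizer_le_normalizer _ (Subgroup.zpowers_le.2 z.2 hx)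
    have hinv : ∀ s : (S : Subgroup G), ∀ T ∈ F, (s : G) • T ∈ F := by
      rintro s T hT ⟨x, hx⟩
      change x • ((s : G) • T) = (s : G) • T
      have hcm : x * (s : G) = (s : G) * x :=
        (Subgroup.mem_centralizer_iff.1 (Subgroup.zpowers_le.2 z.2 hx) s s.2).symm
      rw [smul_smul, hcm, mul_smul]
      congr 1
      exact hT ⟨x, hx⟩
    let Fs : SubMulAction (S : Subgroup G) (Sylow 7 G) :=
      { carrier := F, smul_mem' := fun s T hT => hinv s T hT }
    have hm2 := S.isPGroup'.card_modEq_card_fixedPoints Fs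
    have hfix : Nat.card (MulAction.fixedPoints (S : Subgroup G) Fs) = 1 := by
      rw [Nat.card_eq_one_iff_exists]
      have huniq : ∀ T : Sylow 7 G, (∀ s : (S : Subgroup G), (s : G) • T = T) → T = S := by
        intro T hT
        have hle : (S : Subgroup G) ≤ Subgroup.normalizer (T : Set G) :=
          fun s hs => Sylow.smul_eq_iff_mem_normalizer.1 (hT ⟨s, hs⟩)
        have := S.isPGroup'.inf_normalizer_sylow T
        rw [inf_eq_left.2 hle] at this
        exact Sylow.ext (S.is_maximal' T.isPGroup' (this ▸ inf_le_right))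
      refine ⟨⟨⟨S, hSF⟩, fun s => Subtype.ext ?_⟩, fun T => Subtype.ext (Subtype.ext ?_)⟩
      · exact Sylow.smul_eq_iff_mem_normalizer.2 (Subgroup.le_normalizer s.2)
      · exact huniq _ fun s => congrArg Subtype.val (T.2 s)
    rw [hfix] at hm2
    have hFs : Nat.card Fs = Nat.card F := rfl
    rw [hFs] at hm2
    rw [hn] at hm1
    have hle : Nat.card F ≤ 15 := hn ▸ Nat.card_le_card_of_injective _ Subtype.val_injective
    have hne : Nat.card F ≠ 15 := by
      intro h
      have huniv : F = Set.univ := Set.eq_of_subset_of_ncard_le (Set.subset_univ _)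
        (by rw [← Nat.card_coe_set_eq F, h, Set.ncard_univ, hn]) (Set.toFinite _)
      have hz1 : (z : G) = 1 := hact _ fun T =>
        (huniv ▸ Set.mem_univ T : T ∈ F) ⟨(z : G), Subgroup.mem_zpowers _⟩
      rw [hz1, orderOf_one] at hz
      exact hq.ne_one hz.symm
    have hd : q ∣ 15 - Nat.card F := (Nat.modEq_iff_dvd' hle).1 hm1.symm
    have hmod7 : Nat.card F % 7 = 1 := hm2
    rcases (show Nat.card F = 1 ∨ Nat.card F = 8 by omega) with h | h
    · rw [h] at hd
      have hq2 : q = 2 := by
        rcases (Nat.Prime.dvd_mul hq).1 (show q ∣ 2 * 7 from hd) with h' | h'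
        · exact (Nat.prime_dvd_prime_iff_eq hq Nat.prime_two).1 h'
        · exact absurd ((Nat.prime_dvd_prime_iff_eq hq (by norm_num)).1 h') hq7
      obtain ⟨S', hS'⟩ := Nat.card_eq_one_iff_exists.1 h
      have hsupp : (π z).support.card = 2 * 7 := by
        have hc : (π z).supportᶜ = {(S' : Sylow 7 G)} := by
          ext T
          simp only [Finset.mem_compl, Equiv.Perm.notMem_support, Finset.mem_singleton]
          constructor
          · intro hT
            have hTF : T ∈ F := by
              rintro ⟨x, hx⟩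
              have : Subgroup.zpowers (z : G) ≤ MulAction.stabilizer G T := Subgroup.zpowers_le.2 hT
              exact this hx
            exact congrArg Subtype.val (hS' ⟨T, hTF⟩)
          · rintro rfl
            exact S'.2 ⟨(z : G), Subgroup.mem_zpowers _⟩
        have := congrArg Finset.card hc
        rw [Finset.card_compl, Finset.card_singleton, ← Nat.card_eq_fintype_card, hn] at this
        have hle' : (π z).support.card ≤ 15 := by
          have := Finset.card_le_univ (π z).support
          rwa [← Nat.card_eq_fintype_card, hn] at this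
        omega
      have hsq : (π z) ^ 2 = 1 := by
        rw [← map_pow, ← hq2, ← hz, pow_orderOf_eq_one, map_one]
      have := sign_of_sq_eq_one _ hsq hsupp
      rw [hsign] at this
      exact absurd this (by decide)
    · rw [h] at hd
      exact hq7 ((Nat.prime_dvd_prime_iff_eq hq (by norm_num)).1 hd)
  have hC7 : ∀ S : Sylow 7 G, Nat.card (Subgroup.centralizer ((S : Subgroup G) : Set G)) = 7 := by
    intro S
    have hpg : IsPGroup 7 (Subgroup.centralizer ((S : Subgroup G) : Set G)) := by
      rw [IsPGroup.iff_card]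
      exact ⟨_, Nat.eq_prime_pow_of_unique_prime_dvd Nat.card_pos.ne' fun {d} hd hdd => hcent S d hd hdd⟩
    haveI : IsCyclic S := isCyclic_of_prime_card (hP7 S)
    have hle : (S : Subgroup G) ≤ Subgroup.centralizer ((S : Subgroup G) : Set G) := by
      intro x hx
      rw [Subgroup.mem_centralizer_iff]
      intro y hy
      let _ := IsCyclic.commGroup (α := (S : Subgroup G))
      exact congrArg Subtype.val (mul_comm (⟨y, hy⟩ : (S : Subgroup G)) ⟨x, hx⟩)
    rw [S.is_maximal' hpg hle]
    exact hP7 S
  -- the normalizer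
  haveI : IsCyclic P := isCyclic_of_prime_card (hP7 P)
  set N := Subgroup.normalizer ((P : Subgroup G) : Set G) with hN
  set f := (P : Subgroup G).normalizerMonoidHom with hf
  have hN7 : ∃ d, d ∣ 6 ∧ Nat.card N = 7 * d := by
    refine ⟨Nat.card f.range, ?_, ?_⟩
    · have := Subgroup.card_subgroup_dvd_card f.range
      rwa [IsCyclic.card_mulAut, hP7 P, Nat.totient_prime (by norm_num)] at this
    · rw [← Subgroup.index_ker, ← f.ker.card_mul_index]
      congr 1
      rw [hf, Subgroup.normalizerMonoidHom_ker,
        Nat.card_congr (Subgroup.subgroupOfEquivOfLe (Subgroup.centralizer_le_normalizer _)).toEquiv, hC7]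
  obtain ⟨d, hd6, hNd⟩ := hN7
  have hG : Nat.card G = 105 * d := by
    rw [← N.card_mul_index, hNd]
    have := P.card_eq_index_normalizer
    rw [hn] at this
    rw [hN, Sylow.coe_coe, ← this]
    ring
  have hd_odd : ¬ 2 ∣ d := by
    intro h2
    haveI : Fact (Nat.Prime 2) := ⟨Nat.prime_two⟩
    obtain ⟨t, ht⟩ := exists_prime_orderOf_dvd_card' (G := G) 2 (hG ▸ h2.mul_left 105)
    have hsupp : ((MulAction.toPermHom G G) t).support = Finset.univ :=
      Finset.eq_univ_of_forall fun g => Equiv.Perm.mem_support.2 fun h => by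
        have : t * g = g := h
        rw [mul_eq_right] at this
        rw [this, orderOf_one] at ht
        exact absurd ht (by norm_num)
    obtain ⟨e, rfl⟩ := h2
    have hcard : ((MulAction.toPermHom G G) t).support.card = 2 * (105 * e) := by
      rw [hsupp, Finset.card_univ, ← Nat.card_eq_fintype_card, hG]; ring
    have h1 := sign_of_sq_eq_one _ (by rw [← map_pow, ← ht, pow_orderOf_eq_one, map_one]) hcard
    have h2 : Equiv.Perm.sign ((MulAction.toPermHom G G) t) = 1 :=
      hhom (Equiv.Perm.sign.comp (MulAction.toPermHom G G)) t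
    rw [h2] at h1
    have he : Odd (105 * e) := by
      have h3 : 2 * e ∣ 6 := hd6
      have h4 : e ∣ 3 := Nat.dvd_of_mul_dvd_mul_left two_pos h3
      rcases (Nat.dvd_prime Nat.prime_three).1 h4 with rfl | rfl <;> decide
    rw [he.neg_one_pow] at h1
    exact absurd h1 (by decide)
  have hd13 : d = 1 ∨ d = 3 := by
    have := Nat.le_of_dvd (by norm_num) hd6
    interval_cases d <;> omega
  -- Sylow 5-subgroups
  obtain ⟨Q⟩ := Sylow.nonempty (p := 5) (G := G)
  have h25 : ¬ 5 ^ 2 ∣ Nat.card G := by rw [hG]; rcases hd13 with rfl | rfl <;> norm_num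
  have hQ5 : ∀ S : Sylow 5 G, Nat.card S = 5 := by
    intro S
    have h1 : (5 : ℕ) ∣ Nat.card S := by
      simpa using S.pow_dvd_card_of_pow_dvd_card (n := 1) (by rw [hG]; exact ⟨21 * d, by ring⟩)
    obtain ⟨k, hk⟩ := IsPGroup.iff_card.1 S.isPGroup'
    have hk2 : k < 2 := by
      by_contra hcon
      exact h25 ((pow_dvd_pow 5 (not_lt.1 hcon)).trans (hk ▸ Subgroup.card_subgroup_dvd_card _))
    interval_cases k
    · rw [hk] at h1; norm_num at h1
    · simpa using hk
  have hN5 : ∀ S : Sylow 5 G, ¬ 7 ∣ Nat.card (Subgroup.normalizer ((S : Subgroup G) : Set G)) := by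
    intro S hdvd
    obtain ⟨y, hy⟩ := exists_prime_orderOf_dvd_card' _ hdvd
    haveI : IsCyclic S := isCyclic_of_prime_card (hQ5 S)
    have h1 : orderOf ((S : Subgroup G).normalizerMonoidHom y) ∣ 7 :=
      hy ▸ orderOf_map_dvd _ y
    have h2 : orderOf ((S : Subgroup G).normalizerMonoidHom y) ∣ 4 := by
      have := orderOf_dvd_natCard ((S : Subgroup G).normalizerMonoidHom y)
      rwa [IsCyclic.card_mulAut, hQ5 S, Nat.totient_prime (by norm_num)] at this
    have h3 : (S : Subgroup G).normalizerMonoidHom y = 1 :=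
      orderOf_eq_one_iff.1 (Nat.dvd_one.1 (Nat.dvd_gcd h1 h2 |>.trans (by norm_num)))
    rw [← Subgroup.orderOf_coe] at hy
    have hzy : IsPGroup 7 (Subgroup.zpowers (y : G)) :=
      IsPGroup.of_card (n := 1) (by rw [pow_one, Nat.card_zpowers, hy])
    obtain ⟨T, hT⟩ := hzy.exists_le_sylow
    have hTeq : Subgroup.zpowers (y : G) = (T : Subgroup G) :=
      Subgroup.eq_of_le_of_card_ge hT (by rw [Nat.card_zpowers, hy, hP7 T])
    have hyC : (y : G) ∈ Subgroup.centralizer ((S : Subgroup G) : Set G) := by
      have h4 : y ∈ (S : Subgroup G).normalizerMonoidHom.ker := h3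
      rw [Subgroup.normalizerMonoidHom_ker] at h4
      exact h4
    have hST : (S : Subgroup G) ≤ Subgroup.centralizer ((T : Subgroup G) : Set G) := by
      intro x hx
      rw [← hTeq, Subgroup.mem_centralizer_iff]
      intro w hw
      exact (Subgroup.mem_centralizer_iff.1 (Subgroup.zpowers_le.2 hyC hw) x hx).symm
    have := Subgroup.card_dvd_of_le hST
    rw [hQ5 S, hC7 T] at this
    norm_num at this
  have hn5 : Nat.card (Sylow 5 G) = 21 := by
    have hidx := Q.card_eq_index_normalizer
    rw [← Sylow.coe_coe] at hidx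
    set n5 := Nat.card (Sylow 5 G)
    have hmul : Nat.card (Subgroup.normalizer ((Q : Subgroup G) : Set G)) * n5 = 105 * d := by
      rw [hidx, Subgroup.card_mul_index, hG]
    have h7d : 7 ∣ n5 :=
      ((Nat.Prime.dvd_mul (by norm_num)).1 (hmul ▸ ⟨15 * d, by ring⟩)).resolve_left (hN5 Q)
    have hmod : n5 % 5 = 1 := card_sylow_modEq_one 5 G
    have hdvd : n5 ∣ 21 * d := by
      have hco : n5.Coprime 5 :=
        Nat.coprime_comm.1 ((Nat.Prime.coprime_iff_not_dvd (by norm_num)).2 (by omega))
      exact hco.dvd_of_dvd_mul_left (Dvd.intro_left _ (hmul.trans (show 105 * d = 5 * (21 * d) by ring)))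
    rcases hd13 with rfl | rfl <;>
    · have hle := Nat.le_of_dvd (by norm_num) hdvd
      interval_cases n5 <;> omega
  -- counting
  have c7 : 90 ≤ Nat.card {g : G // orderOf g = 7} := by
    have := mul_totient_le_card_orderOf (fun S : Sylow 7 G => (S : Subgroup G))
      (fun a b h => Sylow.ext h) 7 (fun S => isCyclic_of_prime_card (hP7 S)) hP7
    rwa [hn, Nat.totient_prime (by norm_num)] at this
  have c5 : 84 ≤ Nat.card {g : G // orderOf g = 5} := by
    have := mul_totient_le_card_orderOf (fun S : Sylow 5 G => (S : Subgroup G))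
      (fun a b h => Sylow.ext h) 5 (fun S => isCyclic_of_prime_card (hQ5 S)) hQ5
    rwa [hn5, Nat.totient_prime (by norm_num)] at this
  have hsum : Nat.card {g : G // orderOf g = 7} + Nat.card {g : G // orderOf g = 5} +
      Nat.card {g : G // orderOf g = 15} ≤ Nat.card G := by
    simp only [Nat.card_eq_fintype_card, Fintype.card_subtype]
    rw [← Finset.card_union_of_disjoint, ← Finset.card_union_of_disjoint]
    · exact Finset.card_le_univ _
    · rw [Finset.disjoint_left]; intro g; simp only [Finset.mem_union, Finset.mem_filter]; omega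
    · rw [Finset.disjoint_left]; intro g; simp only [Finset.mem_filter]; omega
  rcases hd13 with rfl | rfl
  · omega
  · have hcN : ∀ S : Sylow 5 G,
        Nat.card (Subgroup.normalizer ((S : Subgroup G) : Set G)) = 15 := by
      intro S
      have hidx := S.card_eq_index_normalizer
      rw [← Sylow.coe_coe, hn5] at hidx
      have := Subgroup.card_mul_index (Subgroup.normalizer ((S : Subgroup G) : Set G))
      rw [← hidx, hG] at this
      omega
    have c15 : 168 ≤ Nat.card {g : G // orderOf g = 15} := by
      have := mul_totient_le_card_orderOf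
        (fun S : Sylow 5 G => Subgroup.normalizer ((S : Subgroup G) : Set G)) (fun a b h => ?_) 15
        (fun S => ?_) hcN
      · rwa [hn5, show Nat.totient 15 = 8 from by decide] at this
      · have hle : (a : Subgroup G) ≤ Subgroup.normalizer ((b : Subgroup G) : Set G) :=
          Subgroup.le_normalizer.trans h.le
        have h1 := a.isPGroup'.inf_normalizer_sylow b
        rw [← Sylow.coe_coe, inf_eq_left.2 hle] at h1
        exact (Sylow.ext (a.is_maximal' b.isPGroup' (h1 ▸ inf_le_right))).symm
      · -- cyclic of order 15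
        obtain ⟨x, hx⟩ := exists_prime_orderOf_dvd_card' (G := Subgroup.normalizer ((S : Subgroup G) : Set G)) 3
          (by rw [hcN S]; norm_num)
        obtain ⟨y, hy⟩ := exists_prime_orderOf_dvd_card' (G := Subgroup.normalizer ((S : Subgroup G) : Set G)) 5
          (by rw [hcN S]; norm_num)
        haveI : IsCyclic S := isCyclic_of_prime_card (hQ5 S)
        have h3 : (S : Subgroup G).normalizerMonoidHom x = 1 := by
          have h1 : orderOf ((S : Subgroup G).normalizerMonoidHom x) ∣ 3 := hx ▸ orderOf_map_dvd _ x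
          have h2 : orderOf ((S : Subgroup G).normalizerMonoidHom x) ∣ 4 := by
            have := orderOf_dvd_natCard ((S : Subgroup G).normalizerMonoidHom x)
            rwa [IsCyclic.card_mulAut, hQ5 S, Nat.totient_prime (by norm_num)] at this
          exact orderOf_eq_one_iff.1 (Nat.dvd_one.1 (Nat.dvd_gcd h1 h2 |>.trans (by norm_num)))
        have hyS : (y : G) ∈ (S : Subgroup G) := by
          have hzy : IsPGroup 5 (Subgroup.zpowers (y : G)) :=
            IsPGroup.of_card (n := 1) (by rw [pow_one, Nat.card_zpowers, Subgroup.orderOf_coe, hy])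
          have h1 := hzy.inf_normalizer_sylow S
          rw [← Sylow.coe_coe, inf_eq_left.2 (Subgroup.zpowers_le.2 y.2)] at h1
          exact (h1.le (Subgroup.mem_zpowers _)).2
        have hxy : Commute x y := by
          have h4 : x ∈ (S : Subgroup G).normalizerMonoidHom.ker := h3
          rw [Subgroup.normalizerMonoidHom_ker] at h4
          exact Subtype.ext (Subgroup.mem_centralizer_iff.1 h4 _ hyS).symm
        refine isCyclic_of_orderOf_eq_card (x * y) ?_
        rw [hcN S, hxy.orderOf_mul_eq_mul_orderOf_of_coprime (by rw [hx, hy]; norm_num), hx, hy]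
    omega

/-- No finite group has fifteen Sylow 7-subgroups. -/
theorem card_sylow_seven_ne_fifteen (G : Type u) [Group G] [Finite G] :
    Nat.card (Sylow 7 G) ≠ 15 := by
  obtain ⟨n, hn⟩ : ∃ n, Nat.card G = n := ⟨_, rfl⟩
  induction n using Nat.strong_induction_on generalizing G with
  | _ n ih =>
    exact fun h => card_sylow_seven_ne_fifteen_step (fun H _ _ hlt => ih _ (hn ▸ hlt) H rfl) h

end Cfsg.Agent.H90
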