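import Mathlib

set_option autoImplicit false
open Pointwise Matrix

namespace Cfsg.Agent.H90

variable {G Ω : Type*} [Group G] [MulAction G Ω]

/-- An automorphism of a transitive group sending `G_o` into some `G_ω` is induced by a permutation. -/
theorem exists_perm_of_fixed [Finite G] [MulAction.IsPretransitive G Ω] (o ω : Ω) (α : G ≃* G)
    (h : ∀ g : G, g • o = o → α g • ω = ω) :
    ∃ σ : Equiv.Perm Ω, ∀ g : G, ∀ x : Ω, α g • σ x = σ (g • x) := by
  haveI : Finite Ω := Finite.of_surjective (fun g : G => g • o) (MulAction.surjective_smul G o)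
  have hex := MulAction.exists_smul_eq G o
  choose r hr using hex
  have key : ∀ g : G, α g • ω = α (r (g • o)) • ω := by
    intro g
    have h1 : ((r (g • o))⁻¹ * g) • o = o := by rw [mul_smul, inv_smul_eq_iff, hr]
    have h2 := h _ h1
    rwa [map_mul, mul_smul, map_inv, inv_smul_eq_iff] at h2
  have hs : Function.Surjective fun x : Ω => α (r x) • ω := by
    intro y
    obtain ⟨g, rfl⟩ := MulAction.exists_smul_eq G ω y
    refine ⟨α.symm g • o, ?_⟩
    change α (r (α.symm g • o)) • ω = g • ω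
    rw [← key, MulEquiv.apply_symm_apply]
  refine ⟨Equiv.ofBijective _ ⟨(Finite.injective_iff_surjective).2 hs, hs⟩, fun g x => ?_⟩
  change α g • (α (r x) • ω) = α (r (g • x)) • ω
  rw [smul_smul, ← map_mul, key, mul_smul, hr]

variable [Fintype Ω] [DecidableEq Ω]

/-- A matrix invariant under a doubly transitive group is `a • 1 + b • J`. -/
theorem eq_smul_one_add (h2 : MulAction.IsMultiplyPretransitive G Ω 2) {x₀ y₀ : Ω} (hne : x₀ ≠ y₀)
    (Q : Matrix Ω Ω ℤ) (h : ∀ (g : G) x y, Q (g • x) (g • y) = Q x y) :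
    Q = (Q x₀ x₀ - Q x₀ y₀) • (1 : Matrix Ω Ω ℤ) + Q x₀ y₀ • Matrix.of (fun _ _ => (1 : ℤ)) := by
  haveI : MulAction.IsPretransitive G Ω :=
    MulAction.isPretransitive_of_is_two_pretransitive
  ext x y
  simp only [Matrix.add_apply, Matrix.smul_apply, Matrix.one_apply, Matrix.of_apply, smul_eq_mul,
    mul_ite, mul_one, mul_zero]
  by_cases hxy : x = y
  · subst hxy
    obtain ⟨g, rfl⟩ := MulAction.exists_smul_eq G x₀ x
    rw [h, if_pos rfl]
    ring
  · obtain ⟨g, rfl, rfl⟩ := MulAction.is_two_pretransitive_iff.1 h2 hne hxy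
    rw [h, if_neg hxy]
    ring

/-- An odd-order automorphism of a doubly transitive group cannot move a point stabilizer so that
it gets an invariant set of size coprime to the degree, other than a point or a point's complement. -/
theorem card_invariant_eq_one_or_sub_one (h2 : MulAction.IsMultiplyPretransitive G Ω 2) (o : Ω)
    (α : MulAut G) (m : ℕ) (hm : Odd m) (hαm : α ^ m = 1) (O : Finset Ω) (hO : O.Nonempty)
    (hinv : ∀ g : G, g • o = o → ∀ y ∈ O, α g • y ∈ O) (hcop : O.card.Coprime (Fintype.card Ω)) :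
    O.card = 1 ∨ O.card = Fintype.card Ω - 1 := by
  classical
  set n := Fintype.card Ω with hn
  have hk1 : 1 ≤ O.card := hO.card_pos
  have hkn : O.card ≤ n := O.card_le_univ
  rcases Nat.lt_or_ge n 2 with h | h
  · left; omega
  haveI : MulAction.IsPretransitive G Ω :=
    MulAction.isPretransitive_of_is_two_pretransitive
  obtain ⟨x₀, y₀, hne⟩ := Fintype.exists_pair_of_one_lt_card (α := Ω) (by omega)
  set M : Matrix Ω Ω ℤ :=
    Matrix.of fun x y => if ∃ g : G, g • o = x ∧ (α g)⁻¹ • y ∈ O then 1 else 0 with hM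
  have hMg : ∀ (g : G) (y : Ω), M (g • o) y = if (α g)⁻¹ • y ∈ O then 1 else 0 := by
    intro g y
    simp only [hM, Matrix.of_apply]
    congr 1
    refine propext ⟨?_, fun hy => ⟨g, rfl, hy⟩⟩
    rintro ⟨g', hg', hy⟩
    have h1 : (g⁻¹ * g') • o = o := by rw [mul_smul, hg', inv_smul_smul]
    have := hinv _ h1 _ hy
    rwa [map_mul, map_inv, mul_smul, smul_inv_smul] at this
  have hequiv : ∀ (g : G) x y, M (g • x) (α g • y) = M x y := by
    intro g x y
    obtain ⟨g₁, rfl⟩ := MulAction.exists_smul_eq G o x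
    rw [smul_smul, hMg, hMg, map_mul, _root_.mul_inv_rev, mul_smul, inv_smul_smul]
  have hrow : ∀ x, ∑ y, M x y = (O.card : ℤ) := by
    intro x
    obtain ⟨g, rfl⟩ := MulAction.exists_smul_eq G o x
    simp_rw [hMg]
    rw [← Equiv.sum_comp (MulAction.toPerm (α g)) fun y => if (α g)⁻¹ • y ∈ O then (1:ℤ) else 0]
    simp [Finset.filter_mem_eq_inter]
  have hcol : ∀ y, ∑ x, M x y = (O.card : ℤ) := by
    have hc : ∀ y y', ∑ x, M x y' = ∑ x, M x y := by
      intro y y'
      obtain ⟨g, rfl⟩ := MulAction.exists_smul_eq G y y'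
      rw [← Equiv.sum_comp (MulAction.toPerm (α.symm g))]
      refine Finset.sum_congr rfl fun x _ => ?_
      have := hequiv (α.symm g) x y
      rwa [MulEquiv.apply_symm_apply] at this
    intro y
    have h1 : ∑ y', ∑ x, M x y' = (n : ℤ) * O.card := by
      rw [Finset.sum_comm, Finset.sum_congr rfl fun x _ => hrow x, Finset.sum_const,
        Finset.card_univ, nsmul_eq_mul, hn]
    rw [Finset.sum_congr rfl fun y' _ => hc y y', Finset.sum_const, Finset.card_univ,
      nsmul_eq_mul, ← hn] at h1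
    exact mul_left_cancel₀ (by exact_mod_cast (by omega : n ≠ 0)) h1
  set J : Matrix Ω Ω ℤ := Matrix.of (fun _ _ => (1 : ℤ)) with hJ
  have hMJ : M * J = (O.card : ℤ) • J := by
    ext x y; simp [Matrix.mul_apply, hJ, hrow x]
  have hJM : J * Mᵀ = (O.card : ℤ) • J := by
    ext x y; simp [Matrix.mul_apply, hJ, hrow y]
  set k : ℤ := (O.card : ℤ) with hk
  have hsumrow : ∀ a b : ℤ, ∀ x, ∑ y, (a • (1 : Matrix Ω Ω ℤ) + b • J) x y = a + n * b := by
    intro a b x
    simp only [Matrix.add_apply, Matrix.smul_apply, Matrix.one_apply, smul_eq_mul, hJ,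
      Matrix.of_apply, mul_ite, mul_one, mul_zero, Finset.sum_add_distrib]
    rw [Finset.sum_ite_eq, if_pos (Finset.mem_univ _), Finset.sum_const, Finset.card_univ,
      nsmul_eq_mul, ← hn]
  -- `M Mᵀ = c + l J`
  have hMMinv : ∀ (g : G) x y, (M * Mᵀ) (g • x) (g • y) = (M * Mᵀ) x y := by
    intro g x y
    simp only [Matrix.mul_apply, Matrix.transpose_apply]
    rw [← Equiv.sum_comp (MulAction.toPerm (α g))]
    exact Finset.sum_congr rfl fun z _ => by simp [hequiv]
  have hMM := eq_smul_one_add h2 hne (M * Mᵀ) hMMinv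
  set c := (M * Mᵀ) x₀ x₀ - (M * Mᵀ) x₀ y₀ with hc
  set l := (M * Mᵀ) x₀ y₀ with hl
  have hl0 : 0 ≤ l := by
    rw [hl, Matrix.mul_apply]
    refine Finset.sum_nonneg fun z _ => mul_nonneg ?_ ?_ <;>
      simp only [hM, Matrix.transpose_apply, Matrix.of_apply] <;> split_ifs <;> norm_num
  have hdiag : c + l = k := by
    have : (M * Mᵀ) x₀ x₀ = k := by
      rw [Matrix.mul_apply, ← hrow x₀]
      refine Finset.sum_congr rfl fun z _ => ?_
      simp only [hM, Matrix.transpose_apply, Matrix.of_apply]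
      split_ifs <;> norm_num
    rw [hc, this]; ring
  have hsq : k * k = c + n * l := by
    have h1 : ∑ y, (M * Mᵀ) x₀ y = k * k := by
      simp only [Matrix.mul_apply, Matrix.transpose_apply]
      rw [Finset.sum_comm]
      simp only [← Finset.mul_sum, hcol, ← Finset.sum_mul, hrow]
    rw [hMM] at h1
    rw [hsumrow] at h1
    linarith
  -- powers
  have hpow : ∀ j : ℕ, ∃ μ : ℤ, M ^ j * (M ^ j)ᵀ = c ^ j • 1 + μ • J := by
    intro j
    induction j with
    | zero => exact ⟨0, by simp⟩
    | succ j ih =>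
      obtain ⟨μ, hμ⟩ := ih
      refine ⟨c ^ j * l + μ * k * k, ?_⟩
      calc M ^ (j+1) * (M ^ (j+1))ᵀ = M * (M ^ j * (M ^ j)ᵀ) * Mᵀ := by
            rw [pow_succ', Matrix.transpose_mul]; simp [mul_assoc]
        _ = c ^ j • (M * Mᵀ) + μ • (M * J * Mᵀ) := by
            rw [hμ, mul_add, add_mul, mul_smul_comm, mul_smul_comm, mul_one, smul_mul_assoc,
              smul_mul_assoc]
        _ = _ := by
            rw [hMJ, smul_mul_assoc, hJM, hMM]
            module
  have hrows : ∀ j : ℕ, ∀ x, ∑ y, (M ^ j) x y = k ^ j := by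
    intro j
    induction j with
    | zero => intro x; simp [Matrix.one_apply]
    | succ j ih =>
      intro x
      simp only [pow_succ', Matrix.mul_apply]
      rw [Finset.sum_comm]
      simp only [← Finset.mul_sum, ih, ← Finset.sum_mul, hrow]
  have hequivj : ∀ (j : ℕ) (g : G) x y, (M ^ j) (g • x) ((α ^ j) g • y) = (M ^ j) x y := by
    intro j
    induction j with
    | zero => intro g x y; simp [Matrix.one_apply]
    | succ j ih =>
      intro g x y
      rw [pow_succ' M, Matrix.mul_apply, Matrix.mul_apply,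
        ← Equiv.sum_comp (MulAction.toPerm (α g))]
      refine Finset.sum_congr rfl fun z _ => ?_
      rw [pow_succ α, MulAut.mul_apply, MulAction.toPerm_apply, hequiv, ih]
  have hMm := eq_smul_one_add h2 hne (M ^ m) (fun g x y => by
    have := hequivj m g x y
    rwa [hαm] at this)
  set a := (M ^ m) x₀ x₀ - (M ^ m) x₀ y₀
  set b := (M ^ m) x₀ y₀
  have hrowm : a + n * b = k ^ m := by
    have h1 := hrows m x₀
    rw [hMm] at h1
    rw [← hJ, hsumrow] at h1
    linarith
  have hJJ : J * J = (n : ℤ) • J := by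
    ext x y; simp [Matrix.mul_apply, hJ, hn]
  have ha : a * a = c ^ m := by
    obtain ⟨μ, hμ⟩ := hpow m
    rw [hMm, ← hJ, Matrix.transpose_add, Matrix.transpose_smul, Matrix.transpose_smul,
      Matrix.transpose_one, show Jᵀ = J from rfl] at hμ
    simp only [mul_add, add_mul, smul_mul_assoc, mul_smul_comm, one_mul, mul_one, hJJ] at hμ
    have e1 := congrFun (congrFun hμ x₀) x₀
    have e2 := congrFun (congrFun hμ x₀) y₀
    simp only [Matrix.add_apply, Matrix.smul_apply, Matrix.one_apply_eq, Matrix.one_apply_ne hne,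
      smul_eq_mul, hJ, Matrix.of_apply] at e1 e2
    linarith
  obtain ⟨j, rfl⟩ := hm
  obtain ⟨s, hs, hs0⟩ : ∃ s : ℤ, c = s ^ 2 ∧ 0 ≤ s := by
    rcases eq_or_ne c 0 with h0 | h0
    · exact ⟨0, by simp [h0], le_rfl⟩
    have hd : (c ^ j) ^ 2 ∣ a ^ 2 := by
      rw [← pow_mul, pow_two a, ha, Nat.mul_comm j 2, pow_succ]
      exact Dvd.intro c rfl
    obtain ⟨t, ht⟩ := (Int.pow_dvd_pow_iff two_ne_zero).1 hd
    refine ⟨|t|, ?_, abs_nonneg t⟩
    rw [sq_abs]
    apply mul_left_cancel₀ (pow_ne_zero 2 (pow_ne_zero j h0))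
    calc (c ^ j) ^ 2 * c = c ^ (2 * j + 1) := by ring
      _ = a * a := ha.symm
      _ = (c ^ j) ^ 2 * t ^ 2 := by rw [ht]; ring
  have hsm : a = s ^ (2 * j + 1) ∨ a = -(s ^ (2 * j + 1)) := by
    apply mul_self_eq_mul_self_iff.1
    rw [ha, hs]; ring
  -- modulo `n`
  have hnd : (n : ℤ) ∣ k - s ∨ (n : ℤ) ∣ k + s := by
    have hu : IsUnit ((k : ℤ) : ZMod n) := by
      rw [hk, Int.cast_natCast]
      exact (ZMod.isUnit_iff_coprime _ _).2 hcop
    have h1 : ((k : ℤ) : ZMod n) * k = (s : ZMod n) ^ 2 := by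
      rw [← Int.cast_mul, hsq, hs]; simp
    have h3 : ((k : ℤ) : ZMod n) ^ (2 * j + 1) = (a : ZMod n) := by
      rw [← Int.cast_pow, ← hrowm]; simp
    have hus : IsUnit ((s : ZMod n) ^ (2 * j)) := by
      rw [pow_mul, ← h1]
      exact (hu.mul hu).pow j
    have h4 : ((k : ℤ) : ZMod n) * (s : ZMod n) ^ (2 * j) = (a : ZMod n) := by
      rw [← h3, pow_mul, ← h1, pow_succ, pow_mul]
      ring
    rcases hsm with ha' | ha'
    · left
      rw [← ZMod.intCast_zmod_eq_zero_iff_dvd]
      rw [ha', Int.cast_pow, pow_succ', hus.mul_left_inj] at h4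
      simp [h4]
    · right
      rw [← ZMod.intCast_zmod_eq_zero_iff_dvd]
      rw [ha', Int.cast_neg, Int.cast_pow, pow_succ', ← neg_mul, hus.mul_left_inj] at h4
      simp [h4]
  have hk1' : 1 ≤ k := by rw [hk]; exact_mod_cast hk1
  have hkn' : k < n := by
    rw [hk]
    have : O.card ≠ n := by
      intro e
      rw [e, Nat.coprime_self] at hcop
      omega
    exact_mod_cast lt_of_le_of_ne hkn this
  have hsk : s ≤ k := by
    nlinarith [sq_nonneg (s - 1)]
  have concl : k = 1 ∨ k = n - 1 := by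
    rcases hnd with ⟨q, hq⟩ | ⟨q, hq⟩
    · left
      have : q = 0 := by
        have h1 : 0 ≤ q := by nlinarith
        have h2 : q < 1 := by nlinarith
        omega
      subst this
      have : s = k := by linarith
      nlinarith
    · right
      have : q = 1 := by
        have h1 : 0 < q := by nlinarith
        have h2 : q < 2 := by nlinarith
        omega
      subst this
      have hl' : l = k - s := by
        apply mul_left_cancel₀ (show (n : ℤ) ≠ 0 by positivity)
        linear_combination (-1 : ℤ) * hsq - hs + (k - s) * hq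
      have : s * (s - 1) = 0 := by linear_combination -hs + hdiag - hl'
      rcases mul_eq_zero.1 this with h0 | h0
      · exfalso; linarith
      · linarith
  rcases concl with h1 | h1
  · left; rw [hk] at h1; exact_mod_cast h1
  · right; omega

end Cfsg.Agent.H90
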